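import Cfsg.Agent.X7.LT8

/-! The normaliser of a Singer cycle is maximal in `SL₇(q)`. -/

set_option autoImplicit false
set_option linter.unusedSectionVars false

namespace Cfsg.Agent.SNG

open MulAction Module Cfsg.Geo
open scoped ComplexConjugate Pointwise

variable {F L : Type*} [Field F] [Fintype F] [Field L] [Algebra F L] [Finite L]
  {G : Subgroup (L ≃ₗ[F] L)}

theorem MinOv.lt7 (h : MinOv G) (hn : (finrank F L).Prime) (h7 : finrank F L = 7) {a : L}
    (ha : Good G a) {c : Lˣ} (hc : c ∈ C0 F L) (hc' : c ∉ S0 F L) : LT F G a (c * a) := by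
  by_cases h8 : Fintype.card F = 8
  · exact h.lt8 hn h7 h8 ha hc hc'
  · exact lt_of_big ha.1 (TTsAux.nm ha.1 hc') (h.big7 hn h7 h8 ha hc hc')

theorem MinOv.good7 (h : MinOv G) (hn : (finrank F L).Prime) (h7 : finrank F L = 7) {a : L}
    (a0 : a ≠ 0) : Good G a := by
  obtain ⟨b, hb⟩ := h.exists_good7 hn h7
  let Γ := stabilizer Lˣ {x | Good G x}
  have mΓ : ∀ u : Lˣ, u ∈ Γ ↔ ∀ x, Good G x → Good G (u * x) := fun u =>
    (mem_stabilizer_set_iff_smul_set_subset (Set.toFinite _)).trans Set.smul_set_subset_iff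
  have hC : ∀ {u x}, u ∈ C0 F L → Good G x → Good G (u * x) := fun hu hx => hx.smul ⟨_, h.mem _ hu⟩
  have hD : C0 F L ⊔ S0 F L ≤ Γ := sup_le (fun u hu => (mΓ u).2 fun _ => hC hu)
    fun u hu => (mΓ u).2 fun _ hx => hx.scal hu
  have hadd : ∀ c ∈ C0 F L, c ∉ S0 F L → ∀ (β : F) (u : Lˣ), (u : L) = c + algebraMap F L β →
      u ∈ Γ := fun c hc hc' β u e => (mΓ u).2 fun x hx => by
    obtain ⟨g, -, g2⟩ := h.lt7 hn h7 hx hc hc' β
    rw [e, add_mul, ← Algebra.smul_def, ← g2]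
    exact (hC hc hx).smul g
  suffices k : Γ = ⊤ by
    simpa [hb.1] using (mΓ (Units.mk0 (a / b) (div_ne_zero a0 hb.1))).1 (k.ge trivial) b hb
  have hi := Subgroup.relIndex_mul_index hD
  rw [index_CS] at hi
  by_contra hne
  have hle : Γ ≤ C0 F L ⊔ S0 F L := Subgroup.relIndex_eq_one.1 (by
    by_cases hc : Nat.card (Z0 F L) = 1
    · exact Nat.eq_one_of_mul_eq_one_right (hi.trans hc)
    · exact ((Nat.Prime.eq_one_or_self_of_dvd ((dvd_of_Z0 hn hc).1 ▸ hn) _ ⟨_, hi.symm⟩).resolve_right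
        fun k => hne (Subgroup.index_eq_one.1 (by
          rwa [k, mul_eq_left₀ Nat.card_pos.ne'] at hi))))
  have sc : ∀ (r : F) (u : Lˣ), algebraMap F L r = u → u ∈ Γ := fun r u e =>
    hD (Subgroup.mem_sup_right (mem_S0.2 ⟨r, e⟩))
  let A : Subalgebra F L :=
    { carrier := {x | ∀ u : Lˣ, x = u → u ∈ Γ}
      algebraMap_mem' := sc
      mul_mem' := fun {x y} hx hy u e => by
        have k := e ▸ u.ne_zero
        rw [show u = Units.mk0 x (left_ne_zero_of_mul k) * Units.mk0 y (right_ne_zero_of_mul k) from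
          Units.ext e.symm]
        exact mul_mem (hx _ rfl) (hy _ rfl)
      add_mem' := fun {x y} hx hy u e => by
        by_cases x0 : x = 0
        · exact hy u (by rw [← e, x0, zero_add])
        by_cases y0 : y = 0
        · exact hx u (by rw [← e, y0, add_zero])
        lift x to Lˣ using Ne.isUnit x0
        lift y to Lˣ using Ne.isUnit y0
        obtain ⟨c, hc, s, hs, k⟩ := Subgroup.mem_sup.1 (hle (div_mem (hx _ rfl) (hy _ rfl)))
        obtain rfl : x = c * s * y := by rw [k, div_mul_cancel]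
        obtain ⟨β, hβ⟩ := mem_S0.1 (inv_mem hs)
        have k1 : ((u / (s * y) : Lˣ) : L) = c + algebraMap F L β := by
          rw [hβ]; push_cast; rw [← e]; push_cast; field_simp
        rw [← div_mul_cancel u (s * y)]
        refine mul_mem ?_ (mul_mem (hD (Subgroup.mem_sup_right hs)) (hy _ rfl))
        by_cases hc' : c ∈ S0 F L
        · obtain ⟨r, hr⟩ := mem_S0.1 hc'
          exact sc (r + β) _ (by rw [k1, map_add, hr])
        · exact hadd c hc hc' β _ k1 }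
  obtain ⟨t, ht, t1⟩ := (Subgroup.bot_or_exists_ne_one (T0 F L)).resolve_left fun k => h.nn (by
    rw [k, sg, Subgroup.map_bot, Subgroup.bot_subgroupOf]; infer_instance)
  have hA : ⊤ ≤ A := by
    rw [← adjoin_top hn (u := t) fun c e => t1 (Subgroup.mem_bot.1 ((T0_inf_S07 hn h7).le
      ⟨ht, mem_S0.2 ⟨c, e⟩⟩))]
    exact Algebra.adjoin_le (Set.singleton_subset_iff.2 fun u e =>
      Units.ext e ▸ hD (Subgroup.mem_sup_left ht.1))
  exact hne (top_le_iff.1 fun u _ => hA (x := u) trivial u rfl)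

open TTsAux Submodule in
theorem MinOv.tt7 (h : MinOv G) (hn : (finrank F L).Prime) (h7 : finrank F L = 7) :
    TT F G L := by
  have lt1 : ∀ {a : L} {c : Lˣ}, a ≠ 0 → c ∈ C0 F L → c ∉ S0 F L → LT F G a (c * a) :=
    fun a0 hc hc' => h.lt7 hn h7 (h.good7 hn h7 a0) hc hc'
  have hlt : ∀ x y : L, x ≠ 0 → y ∉ span F {x} → LT F G x y := fun x y x0 hy => by
    obtain ⟨a, c, a0, hc, hc', e⟩ := pigeon7 hn h7 x0 hy
    refine LT.plane (lt1 a0 hc hc') ?_ (e ▸ left_l2 x y) (e ▸ right_l2 x y) x0 hy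
    simpa using lt1 (mul_ne_zero c.ne_zero a0) (inv_mem hc) fun k => hc' (inv_mem_iff.1 k)
  have af : AF F G L := af_of_lt (fun a b => trans_of_lt (by omega) hlt) hlt
  obtain ⟨p, hp⟩ := CharP.exists F
  have : Fact p.Prime := ⟨CharP.char_is_prime F p⟩
  have : Finite (L ≃ₗ[F] L) := finite_gl
  obtain ⟨T⟩ : Nonempty (Sylow p G) := inferInstance
  obtain ⟨x, y, loc⟩ := exists_loc af (by omega) T
  obtain ⟨W, g⟩ := loc.exists_geo0
  obtain ⟨a, c, a0, hc, hc', e⟩ := pigeon7 hn h7 g.x0 g.yx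
  have am : a ∈ span F {x, y} := e ▸ left_l2 _ _
  have h1 : span F {x, y} ≤ W a :=
    l2_le (g.symm x a a0 (l2_le (g.self x) g.ymem am))
      (g.symm y a a0 (l2_le (g.symm x y (ne0_of_notMem g.yx) g.ymem) (g.self y) am))
  have h2 : (c : L) * a ∈ W a := h1 (e ▸ right_l2 _ _)
  by_cases h8 : Fintype.card F = 8
  · refine g.tt (eq_top_of_finrank_eq ?_) (by omega)
    rw [g.rk_eq g.x0 a0]
    by_contra k
    have h6 := finrank_le (W a)
    exact h.proj8 hn h7 h8 a0 hc hc' (fun x y => y ∈ W x) (fun k x y => g.eqv k x y)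
      (fun s x y s0 r => by rwa [g.smul s x s0]) h2 (Q := W a) (by omega) (fun y hy => ⟨y, hy⟩)
      (fun y hy y0 e => y0 (congrArg Subtype.val e))
      fun y hy y' hy' t e => mem_span_singleton.2 ⟨t, (congrArg Subtype.val e).symm⟩
  have h3 : orbit (stabilizer G a) ((c : L) * a) ⊂ (W a : Set L) := by
    refine ⟨?_, fun k => ?_⟩
    · rintro _ ⟨k, rfl⟩
      have := g.eqv k a _ h2
      rwa [show (k : G) • a = a from k.2] at this
    · obtain ⟨k, hk⟩ := k (W a).zero_mem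
      exact smul_ne (g := (k : G)) (mul_ne_zero c.ne_zero a0) hk
  have h4 := (h.big7 hn h7 h8 (h.good7 hn h7 a0) hc hc').trans_lt (Set.ncard_lt_ncard h3 (Set.toFinite _))
  rw [← Nat.card_coe_set_eq, show Nat.card (W a : Set L) = _ from card_eq_pow (W a)] at h4
  have h5 := (Nat.pow_lt_pow_iff_right Fintype.one_lt_card).1 h4
  have h6 := finrank_le (W a)
  refine g.tt (eq_top_of_finrank_eq ?_) (by omega)
  rw [g.rk_eq g.x0 a0]
  omega

theorem Ov.sl_le7 (h : Ov G) (hn : (finrank F L).Prime) (h7 : finrank F L = 7)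
    (hnn : ¬ (sg G (T0 F L)).Normal) : H27.SLV F L ≤ G := by
  obtain ⟨G', hle, hm⟩ := h.exists_min7 hn h7 hnn
  haveI := finite_gl (F := F) (L := L)
  have ht := hm.tt7 hn h7
  refine le_trans (H27.SLV_le fun v φ hφ => ?_) hle
  obtain ⟨g, hg⟩ := ht.tv_all (ck_all ht (by omega)) hφ
  exact ⟨g, g.2, hg⟩

theorem main_L7 (hn : (finrank F L).Prime) (h7 : finrank F L = 7) :
    IsMaximalIn (H27.SLV F L) (H98.GamK L ⊓ H27.SLV F L) := by
  refine H27.isMaximalIn_of inf_le_right ?_ fun M hH hM g hg hg' => ?_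
  · obtain ⟨g, h1, h2⟩ := main_proper hn (by omega)
    exact ⟨g, h1, fun h => h2 h.1⟩
  have hO : Ov M := ⟨fun g hg => H27.mem_SLV.1 (hM hg), fun u hu => hH
    ⟨H98.mem_GamK_of_lin fun k x => by simp only [mu_apply, smul_eq_mul]; ring,
      H27.mem_SLV.2 (by rw [det_mu]; exact mem_C0.1 hu)⟩⟩
  refine hO.sl_le7 hn h7 fun hN => hg' ⟨?_, hM hg⟩
  have hv := (num7 hn h7).hv1 (Nat.le_refl _)
  obtain ⟨⟨t, ht⟩, ht1⟩ : ∃ t : T0 F L, t ≠ 1 := by
    haveI : Nontrivial (T0 F L) := Finite.one_lt_card_iff_nontrivial.1 (by nlinarith)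
    exact exists_ne 1
  have hC : t ∈ C0 F L := ht.1
  obtain ⟨u, -, hu⟩ := mem_sg.1 (hN.conj_mem ⟨_, hO.mem t hC⟩ (mem_sg.2 ⟨t, ht, rfl⟩) ⟨g, hg⟩)
  refine main_gam hn (t := t) (t' := u) (fun c hc => ht1 (Subtype.ext ?_)) fun x => ?_
  · have : t ∈ T0 F L ⊓ S0 F L := ⟨ht, mem_S0.2 ⟨c, hc⟩⟩
    rwa [T0_inf_S07 hn h7] at this
  · have := DFunLike.congr_fun hu (g x)
    rw [mu_apply] at this
    rw [this]
    change _ = g (mu F L t (g⁻¹ (g x)))
    rw [H27.le_inv_apply, mu_apply]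

theorem main_V7 {V : Type*} [AddCommGroup V] [Module F V] [Module L V] [IsScalarTower F L V]
    (hn : (finrank F L).Prime) (h7 : finrank F L = 7) (h1 : finrank L V = 1) :
    IsMaximalIn (H27.SLV F V) (H98.GamK L ⊓ H27.SLV F V) := by
  haveI : FiniteDimensional L V := .of_finrank_eq_succ h1
  let e : V ≃ₗ[L] L := LinearEquiv.ofFinrankEq _ _ (by rw [h1, finrank_self])
  let e' : V ≃ₗ[F] L := e.restrictScalars F
  let Φ : (V ≃ₗ[F] V) ≃* (L ≃ₗ[F] L) :=
    { toFun := fun g => e'.symm ≪≫ₗ g ≪≫ₗ e'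
      invFun := fun g => e' ≪≫ₗ g ≪≫ₗ e'.symm
      left_inv := fun g => by ext x; simp
      right_inv := fun g => by ext x; simp
      map_mul' := fun g h => by ext x; simp [H27.le_mul_apply] }
  have hΦ : ∀ g x, Φ g x = e (g (e.symm x)) := fun g x => rfl
  have h := H27.isMaximalIn_comap Φ (main_L7 hn h7)
  have e1 : (H27.SLV F L).comap (Φ : (V ≃ₗ[F] V) →* _) = H27.SLV F V := by
    ext g
    rw [Subgroup.mem_comap, H27.mem_SLV, H27.mem_SLV, ← LinearMap.det_conj (g : V →ₗ[F] V) e']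
    rfl
  have e2 : (H98.GamK L : Subgroup (L ≃ₗ[F] L)).comap (Φ : (V ≃ₗ[F] V) →* _) = H98.GamK L := by
    ext g
    refine exists_congr fun σ => ⟨fun h k x => e.injective ?_, fun h k x => ?_⟩
    · have := h k (e x)
      change Φ g _ = _ • Φ g _ at this
      rwa [hΦ, hΦ, ← map_smul e, e.symm_apply_apply, e.symm_apply_apply, ← map_smul e] at this
    · change Φ g _ = _ • Φ g _
      rw [hΦ, hΦ, map_smul e.symm, h, map_smul]
  rwa [Subgroup.comap_inf, e1, e2] at h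

end Cfsg.Agent.SNG

namespace Cfsg.Agent.X7

open Module Cfsg.Geo

theorem c3_sl7 {F : Type*} [Field F] [Fintype F] (K : Subalgebra F (Matrix (Fin 7) (Fin 7) F))
    (hK : IsFieldSubalgebra 7 K) :
    IsMaximalIn (specialLinear (Fin 7) F) (subalgebraNormalizer K ⊓ specialLinear (Fin 7) F) := by
  have h1 := H98.finrank_KF_mul hK
  have h2 : finrank (H98.KF hK) (Fin 7 → F) = 1 := by
    rw [Fintype.card_fin] at h1
    omega
  have h := H27.isMaximalIn_comap (H27.toLE (Fin 7) F) (SNG.main_V7 (L := H98.KF hK) (V := Fin 7 → F)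
    (by rw [H98.KF.finrank_eq]; norm_num) (by rw [H98.KF.finrank_eq]) h2)
  rwa [Subgroup.comap_inf, H98.comap_GamK, H27.comap_SLV] at h

end Cfsg.Agent.X7
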