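import Cfsg.Agent.X7.S7

/-! The Singer cycle in dimension seven: the estimate for orbitals on vectors and on points. -/

set_option autoImplicit false
set_option linter.unusedSectionVars false

namespace Cfsg.Agent.SNG

open MulAction Module Submodule
open scoped ComplexConjugate Pointwise

variable {F L : Type*} [Field F] [Fintype F] [Field L] [Algebra F L] [Finite L]
  {G : Subgroup (L ≃ₗ[F] L)}

theorem act_mu {g : G} {u : Lˣ} (e : mu F L u = g) (x : L) : g • x = u * x := by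
  change (g : L ≃ₗ[F] L) x = _
  rw [← e, mu_apply]

theorem MinOv.est (h : MinOv G) (hn : (finrank F L).Prime) (h7 : finrank F L = 7)
    {X : Type*} [MulAction G X] [Finite X] (x0 : X)
    (free : ∀ (g : G) (u : Lˣ), mu F L u = g → u ∉ S0 F L → ∀ x : X, g • x ≠ x)
    (tr : ∀ N : Subgroup G, N.Normal → sg G (T0 F L) ≤ N → ∀ x : X, ∃ g ∈ N, g • x0 = x)
    (hm : Nat.card X + 1 ≤ Fintype.card F ^ finrank F L)
    (Δ : X → X → Prop) (inv : ∀ (g : G) x y, Δ x y → Δ (g • x) (g • y))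
    {c' : G} {c : Lˣ} (hc1 : mu F L c = c') (hc : c ∈ C0 F L) (hc' : c ∉ S0 F L) :
    ((Nat.card {u // Δ u (c' • u)} : ℝ) - Nat.card {y // Δ x0 y}) ^ 2 *
        ((Nat.card (T0 F L) - 1 : ℕ) : ℝ) ^ 2 ≤
      Nat.card {y // Δ x0 y} * (finrank F L + 1) * (Nat.card X : ℝ) ^ 2 := by
  classical
  have := finite_gl (F := F) (L := L)
  have := Fintype.ofFinite G
  have hcc := h.cc7 hn h7
  have nu := num7 (F := F) (L := L) hn h7
  have sup := h.toOv.sg_sup7 hn h7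
  have cT : Nat.card (sg G (T0 F L)) = Nat.card (T0 F L) := h.toOv.card_sg inf_le_left
  have : Nonempty X := ⟨x0⟩
  have h1 := hcc.flat (by omega) h.gen (X := X)
    (fun g hg hZ x => by
      rw [sup] at hg
      obtain ⟨u, hu, e⟩ := mem_sg.1 hg
      exact free g u e (fun k => hZ (mem_sg.2 ⟨u, ⟨hu, k⟩, e⟩)) x)
    (fun N hN hT x y => by
      obtain ⟨n, a1, a2⟩ := tr N hN hT x
      obtain ⟨n', b1, b2⟩ := tr N hN hT y
      exact ⟨n' * n⁻¹, N.mul_mem b1 (N.inv_mem a1), by rw [← a2, mul_smul, inv_smul_smul, b2]⟩)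
    (by rw [cT]; exact nu.hv1 le_rfl) (by rw [cT]; exact nu.hv2 le_rfl hm) (c := c')
    (by rw [sup]; exact mem_sg.2 ⟨c, hc, hc1⟩)
    (fun e => by
      obtain ⟨u, hu, e1⟩ := mem_sg.1 e
      exact hc' (mu_inj (e1.trans hc1.symm) ▸ hu.2))
  have h2 := cs (G := G) Δ inv (Nat.card {y // Δ x0 y}) (fun x => by
    obtain ⟨g, -, rfl⟩ := tr ⊤ inferInstance le_top x
    exact Nat.card_congr ⟨fun y => ⟨g⁻¹ • y.1, by simpa using inv g⁻¹ _ _ y.2⟩,
      fun y => ⟨g • y.1, inv g _ _ y.2⟩, fun y => by simp, fun y => by simp⟩) c'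
  rw [cT] at h1
  have h4 : ((∑ g : G, Nat.card (fixedBy X (g * c' * g⁻¹ * c'⁻¹)) : ℕ) : ℝ) *
      ((Nat.card (T0 F L) - 1 : ℕ) : ℝ) ^ 2 ≤ Nat.card G * (((Nat.card (T0 F L) - 1 : ℕ) : ℝ) ^ 2 +
        (finrank F L + 1) * Nat.card X) := by exact_mod_cast h1
  rw [Nat.cast_sum] at h4
  have h5 : (0 : ℝ) < Nat.card G := Nat.cast_pos.2 Nat.card_pos
  generalize (∑ g : G, (Nat.card (fixedBy X (g * c' * g⁻¹ * c'⁻¹)) : ℝ)) = S at h2 h4
  generalize Nat.card {u // Δ u (c' • u)} = φ at h2 ⊢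
  generalize Nat.card {y // Δ x0 y} = k at h2 ⊢
  generalize Nat.card (T0 F L) - 1 = w at h4 ⊢
  generalize Nat.card X = m at h2 h4 ⊢
  generalize Nat.card G = N at h2 h4 h5
  refine le_of_mul_le_mul_right ?_ h5
  have h6 : (0 : ℝ) ≤ (m : ℝ) * k := by positivity
  have h7 : (0 : ℝ) ≤ (w : ℝ) ^ 2 := by positivity
  calc ((φ : ℝ) - k) ^ 2 * (w : ℝ) ^ 2 * N = ((φ : ℝ) - k) ^ 2 * N * (w : ℝ) ^ 2 := by ring
    _ ≤ (m : ℝ) * k * (S - N) * (w : ℝ) ^ 2 := mul_le_mul_of_nonneg_right h2 h7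
    _ = (m : ℝ) * k * (S * (w : ℝ) ^ 2 - N * (w : ℝ) ^ 2) := by ring
    _ ≤ (m : ℝ) * k * (N * ((finrank F L + 1) * m)) := mul_le_mul_of_nonneg_left (by linarith) h6
    _ = _ := by ring

theorem card_orb {a : L} (a0 : a ≠ 0) :
    Nat.card (orbit G a) + 1 ≤ Fintype.card F ^ finrank F L := by
  rw [← card_top_eq_pow, Nat.succ_le_iff]
  exact Finite.card_subtype_lt (x := 0) fun ⟨g, e⟩ => smul_ne (g := g) a0 e

theorem MinOv.top (h : MinOv G) (hn : (finrank F L).Prime) (h7 : finrank F L = 7) {N : Subgroup G}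
    (hN : N.Normal) (hT : sg G (T0 F L) ≤ N) (g : G) :
    ∃ n ∈ N, ∃ z : G, ∃ u ∈ Z0 F L, mu F L u = z ∧ n * z = g := by
  have hcc := h.cc7 hn h7
  have zn : (sg G (Z0 F L)).Normal := ⟨fun z hz g => by
    rw [Subgroup.mem_center_iff.1 (hcc.zc hz) g, mul_inv_cancel_right]; exact hz⟩
  have top := h.gen (N ⊔ sg G (Z0 F L)) inferInstance (hT.trans le_sup_left) le_sup_right
  obtain ⟨n, hn', z, hz, rfl⟩ := Subgroup.mem_sup_of_normal_right.1 (top ▸ Subgroup.mem_top g)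
  obtain ⟨u, hu, e⟩ := mem_sg.1 hz
  exact ⟨n, hn', z, u, hu, e, rfl⟩

/-- the estimate on vectors -/
theorem MinOv.vest (h : MinOv G) (hn : (finrank F L).Prime) (h7 : finrank F L = 7) {a b : L}
    (ha : Good G a) (hb : b ∈ orbit G a) {c : Lˣ} (hc : c ∈ C0 F L) (hc' : c ∉ S0 F L) :
    ((Nat.card {u : orbit G a // ∃ g : G, g • a = u ∧ g • b = c * u} : ℝ) -
        (orbit (stabilizer G a) b).ncard) ^ 2 * ((Nat.card (T0 F L) - 1 : ℕ) : ℝ) ^ 2 ≤
      (orbit (stabilizer G a) b).ncard * (finrank F L + 1) * (Nat.card (orbit G a) : ℝ) ^ 2 := by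
  obtain ⟨c', hc1⟩ : ∃ c' : G, mu F L c = c' := ⟨⟨_, h.mem c hc⟩, rfl⟩
  have h1 := h.est hn h7 (X := orbit G a) ⟨a, mem_orbit_self a⟩
    (fun g u e hu x k => by
      obtain ⟨_, g', rfl⟩ := x
      have e1 : (u : L) * g' • a = g' • a := by rw [← act_mu e]; exact congrArg Subtype.val k
      exact hu ((Units.ext ((mul_eq_right₀ (smul_ne ha.1)).1 e1) : u = 1) ▸ one_mem _))
    (fun N hN hT x => by
      obtain ⟨_, g, rfl⟩ := x
      obtain ⟨n, a1, z, u, hu, e, rfl⟩ := h.top hn h7 hN hT g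
      obtain ⟨n', b1, b2⟩ := ha.2 u hu
      refine ⟨n * n', N.mul_mem a1 (Subgroup.normalClosure_le_normal hT b1), Subtype.ext ?_⟩
      change (n * n') • a = (n * z) • a
      rw [mul_smul, b2, ← act_mu e, ← mul_smul])
    (card_orb ha.1) (fun u u' => ∃ g : G, g • a = u ∧ g • b = u')
    (fun g x y ⟨k, a1, a2⟩ => ⟨g * k, by rw [mul_smul, a1]; rfl, by rw [mul_smul, a2]; rfl⟩) hc1 hc hc'
  have e1 : Nat.card {y : orbit G a // ∃ g : G, g • a = a ∧ g • b = y} =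
      (orbit (stabilizer G a) b).ncard := by
    rw [← Nat.card_coe_set_eq]
    obtain ⟨k, rfl⟩ := hb
    refine Nat.card_congr ⟨fun y => ⟨y.1, ?_⟩, fun y => ⟨⟨y.1, ?_⟩, ?_⟩, fun _ => rfl, fun _ => rfl⟩
    · obtain ⟨g, a1, a2⟩ := y.2
      exact ⟨⟨g, a1⟩, a2⟩
    · obtain ⟨g, a1⟩ := y.2
      exact ⟨g * k, by rw [← a1]; exact mul_smul _ _ _⟩
    · obtain ⟨g, a1⟩ := y.2
      exact ⟨g, g.2, a1⟩
  have e2 : ∀ u : orbit G a, ((c' • u : orbit G a) : L) = c * u := fun u => act_mu hc1 _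
  simp only [e2] at h1
  rwa [e1] at h1

theorem MinOv.phi (h : MinOv G) {a : L} (a0 : a ≠ 0) (c : Lˣ) :
    Nat.card (Z0 F L) * Nat.card (T0 F L) ≤
      Nat.card {u : orbit G a // ∃ g : G, g • a = u ∧ g • ((c : L) * a) = c * u} := by
  rw [Sing.card_T0]
  refine Nat.card_le_card_of_injective (fun u => ⟨⟨(⟨_, h.mem u u.2⟩ : G) • a, mem_orbit _ _⟩,
    ⟨_, h.mem u u.2⟩, rfl, ?_⟩) fun u u' e => ?_
  · change _ = c * (⟨_, h.mem u u.2⟩ : G) • a
    rw [act_mu (u := u) rfl, act_mu (u := u) rfl, mul_left_comm]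
  · have e1 : (⟨_, h.mem u u.2⟩ : G) • a = (⟨_, h.mem u' u'.2⟩ : G) • a := congrArg (fun x => x.1.1) e
    rw [act_mu (u := u) rfl, act_mu (u := u') rfl] at e1
    exact Subtype.ext (Units.ext (mul_right_cancel₀ a0 e1))

theorem MinOv.mem_orb (h : MinOv G) (a : L) {c : Lˣ} (hc : c ∈ C0 F L) : (c : L) * a ∈ orbit G a :=
  ⟨⟨_, h.mem c hc⟩, act_mu rfl a⟩

theorem MinOv.big7 (h : MinOv G) (hn : (finrank F L).Prime) (h7 : finrank F L = 7)
    (h8 : Fintype.card F ≠ 8) {a : L} (ha : Good G a) {c : Lˣ} (hc : c ∈ C0 F L) (hc' : c ∉ S0 F L) :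
    Fintype.card F ^ (finrank F L - 1) ≤ (orbit (stabilizer G a) ((c : L) * a)).ncard := by
  refine (num7 (F := F) (L := L) hn h7).big h8 (fun e => ?_) (card_orb ha.1) (h.phi ha.1 c)
    (h.vest hn h7 ha (h.mem_orb a hc) hc hc')
  have := FiniteField.isPrimePow_card F
  rw [e] at this
  exact absurd this (by decide +kernel)

theorem pts {Q : Type*} [AddCommGroup Q] [Module F Q] [Finite Q] {ι : Type*} [Finite ι] (f : ι → Q)
    (h0 : ∀ i, f i ≠ 0) (h1 : ∀ i j (t : F), f j = t • f i → i = j) :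
    Nat.card ι * (Fintype.card F - 1) + 1 ≤ Fintype.card F ^ finrank F Q := by
  rw [← card_top_eq_pow, ← Sing.card_Fu, ← Nat.card_prod, ← Finite.card_option]
  refine Nat.card_le_card_of_injective (fun o => o.elim 0 fun x => (x.2 : F) • f x.1) ?_
  rintro (_ | ⟨i, s⟩) (_ | ⟨j, t⟩) e
  · rfl
  · exact (smul_ne_zero t.ne_zero (h0 j) e.symm).elim
  · exact (smul_ne_zero s.ne_zero (h0 i) e).elim
  · change (s : F) • f i = (t : F) • f j at e
    obtain rfl := h1 i j ((t : F)⁻¹ * s) (by rw [mul_smul, e, inv_smul_smul₀ t.ne_zero])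
    rw [Units.ext (smul_left_injective F (h0 i) e)]

theorem l1_eq {x y : L} (y0 : y ≠ 0) (e : y ∈ span F {x}) : span F {x} = span F {y} :=
  le_antisymm ((span_singleton_le_iff_mem _ _).2 (by_contra fun k => notMem_l1_symm y0 k e))
    ((span_singleton_le_iff_mem _ _).2 e)

theorem smul_l1 (g : G) (x : L) : g • span F {x} = span F {g • x} := by
  ext y
  rw [← smul_inv_smul g y, smul_mem_l1]
  constructor
  · rintro ⟨z, hz, e⟩
    exact (smul_inj (g := g) e : z = _) ▸ hz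
  · exact fun k => ⟨_, k, rfl⟩

theorem num8 (hn : (finrank F L).Prime) (h7 : finrank F L = 7) (hq : Fintype.card F = 8) :
    Nat.card (Z0 F L) = 7 ∧ Nat.card (T0 F L) = 42799 := by
  have e1 : Nat.card (Z0 F L) = 7 := by rw [Sing.card_Z0, hq, h7]; rfl
  have e2 := (num7 (F := F) (L := L) hn h7).eq
  rw [e1, hq, h7] at e2
  exact ⟨e1, by omega⟩

/-- the estimate on points, `q = 8` -/
theorem MinOv.proj8 (h : MinOv G) (hn : (finrank F L).Prime) (h7 : finrank F L = 7)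
    (hq : Fintype.card F = 8) {a : L} (a0 : a ≠ 0) {c : Lˣ} (hc : c ∈ C0 F L) (hc' : c ∉ S0 F L)
    (R : L → L → Prop) (inv : ∀ (g : G) x y, R x y → R (g • x) (g • y))
    (sc : ∀ (s : F) x y, s ≠ 0 → R x y → R (s • x) y) (hR : R a (c * a))
    {Q : Type*} [AddCommGroup Q] [Module F Q] [Finite Q] (hQ : finrank F Q ≤ 6)
    (ψ : ∀ y, R a y → Q) (h1 : ∀ y hy, y ≠ 0 → ψ y hy ≠ 0)
    (h2 : ∀ y hy y' hy' (t : F), ψ y' hy' = t • ψ y hy → y' ∈ span F {y}) : False := by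
  obtain ⟨c', hc1⟩ : ∃ c' : G, mu F L c = c' := ⟨⟨_, h.mem c hc⟩, rfl⟩
  have gen : ∀ P : orbit G (span F {a}), ∃ x, x ≠ 0 ∧ P.1 = span F {x} := by
    rintro ⟨_, g, rfl⟩
    exact ⟨g • a, smul_ne a0, smul_l1 g a⟩
  have fix : ∀ {u : Lˣ} {x : L}, x ≠ 0 → span F {(u : L) * x} = span F {x} → u ∈ S0 F L :=
    fun x0 e => by_contra fun k => TTsAux.nm x0 k (e ▸ mem_span_singleton_self _)
  have hm : Nat.card (orbit G (span F {a})) * (Fintype.card F - 1) + 1 ≤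
      Fintype.card F ^ finrank F L := by
    choose f f0 hf using gen
    exact pts f f0 fun i j t e => Subtype.ext (by
      rw [hf, hf]; exact l1_eq (f0 j) (mem_span_singleton.2 ⟨t, e.symm⟩))
  let Δ : orbit G (span F {a}) → orbit G (span F {a}) → Prop := fun P P' =>
    ∃ x y, y ≠ 0 ∧ P.1 = span F {x} ∧ P'.1 = span F {y} ∧ R x y
  have k1 := h.est hn h7 (X := orbit G (span F {a})) ⟨_, mem_orbit_self _⟩
    (fun g u e hu P k => by
      obtain ⟨x, x0, hx⟩ := gen P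
      have e1 : g • P.1 = P.1 := congrArg Subtype.val k
      rw [hx, smul_l1, act_mu e] at e1
      exact hu (fix x0 e1))
    (fun N hN hT P => by
      obtain ⟨_, g, rfl⟩ := P
      obtain ⟨n, a1, z, u, hu, e, rfl⟩ := h.top hn h7 hN hT g
      refine ⟨n, a1, Subtype.ext ?_⟩
      change n • span F {a} = (n * z) • span F {a}
      obtain ⟨t, ht⟩ := mem_S0.1 hu.2
      rw [mul_smul, smul_l1 z, act_mu e, ← l1_eq (mul_ne_zero u.ne_zero a0)
        (mem_span_singleton.2 ⟨t, by rw [Algebra.smul_def, ht]⟩)])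
    (by rw [hq] at hm ⊢; omega) Δ
    (fun g P P' ⟨x, y, y0, e1, e2, r⟩ => ⟨g • x, g • y, smul_ne y0, by rw [← smul_l1, ← e1]; rfl,
      by rw [← smul_l1, ← e2]; rfl, inv g x y r⟩) hc1 hc hc'
  have k2 : Nat.card {P // Δ ⟨_, mem_orbit_self _⟩ P} * (Fintype.card F - 1) + 1 ≤
      Fintype.card F ^ finrank F Q := by
    have : ∀ P : {P // Δ ⟨_, mem_orbit_self _⟩ P}, ∃ y, y ≠ 0 ∧ P.1.1 = span F {y} ∧ R a y := by
      rintro ⟨P, x, y, y0, e1, e2, r⟩
      obtain ⟨s, hs⟩ := mem_span_singleton.1 (show a ∈ span F {x} from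
        e1 ▸ mem_span_singleton_self a)
      exact ⟨y, y0, e2, hs ▸ sc s x y (by rintro rfl; exact a0 (by rw [← hs, zero_smul])) r⟩
    choose f f0 hf r using this
    exact pts (fun P => ψ (f P) (r P)) (fun P => h1 _ _ (f0 P)) fun i j t e =>
      Subtype.ext (Subtype.ext (by rw [hf, hf]; exact l1_eq (f0 j) (h2 _ _ _ _ t e)))
  have k3 : Nat.card (T0 F L) ≤ Nat.card {P // Δ P (c' • P)} := by
    refine Nat.card_le_card_of_injective (fun t => ⟨⟨(⟨_, h.mem t t.2.1⟩ : G) • span F {a},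
      mem_orbit _ _⟩, _, _, smul_ne (mul_ne_zero c.ne_zero a0), smul_l1 _ _, ?_,
      inv ⟨_, h.mem t t.2.1⟩ _ _ hR⟩) fun t t' e => ?_
    · change c' • (⟨_, h.mem t t.2.1⟩ : G) • span F {a} = _
      rw [smul_l1, smul_l1, act_mu hc1, act_mu (u := t) rfl, act_mu (u := t) rfl, mul_left_comm]
    · have e1 : (⟨_, h.mem t t.2.1⟩ : G) • span F {a} = (⟨_, h.mem t' t'.2.1⟩ : G) • span F {a} :=
        congrArg (fun x => x.1.1) e
      rw [smul_l1, smul_l1, act_mu (u := t) rfl, act_mu (u := t') rfl] at e1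
      have e2 := fix (u := (t * t'⁻¹ : T0 F L)) (mul_ne_zero t'.1.ne_zero a0) (by
        rw [← e1]; congr 2; push_cast; field_simp)
      exact mul_inv_eq_one.1 (Subtype.ext
        (Subgroup.mem_bot.1 ((T0_inf_S07 hn h7).le ⟨(t * t'⁻¹).2, e2⟩)))
  have k4 : 8 ^ finrank F Q ≤ 8 ^ 6 := Nat.pow_le_pow_right (by omega) hQ
  rw [hq] at hm k2
  rw [(num8 hn h7 hq).2] at k1 k3
  rw [h7] at hm
  have k5 := num7_cast (by omega) k1
  rw [h7] at k5
  generalize Nat.card {P // Δ P (c' • P)} = φ at k3 k5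
  generalize Nat.card {P // Δ ⟨_, mem_orbit_self _⟩ P} = k at k2 k5
  generalize Nat.card (orbit G (span F {a})) = m at hm k5
  have a1 : 5350 ^ 2 * (42799 - 1) ^ 2 ≤ (φ - k) ^ 2 * (42799 - 1) ^ 2 := by gcongr; omega
  have a2 : k * (7 + 1) * m ^ 2 ≤ 37449 * (7 + 1) * 299593 ^ 2 := by gcongr <;> omega
  omega

end Cfsg.Agent.SNG
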