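import Cfsg.Agent.X7.Est

/-! The Singer cycle in dimension seven: translations on planes for `q = 8`. -/

set_option autoImplicit false
set_option linter.unusedSectionVars false

namespace Cfsg.Agent.SNG

open MulAction Module Submodule

section

variable {F : Type*} [Field F] [Fintype F]
  {G : Type*} [Group G] {V : Type*} [AddCommGroup V] [Module F V] [DistribMulAction G V]
  [SMulCommClass G F V] [Finite V]

open Classical in
theorem LTa.count {a b : V} (a0 : a ≠ 0) (hb : b ∉ span F {a}) :
    (orbit (stabilizer G a) b).ncard * (Fintype.card F - 1) ≤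
      (Finset.univ.filter fun x : F × F => LTa G a b x.1 x.2).card *
        (Fintype.card F ^ (finrank F V - 1) - 1) := by
  have : Fintype V := Fintype.ofFinite V
  have : Fintype (V ⧸ span F {a}) := Fintype.ofFinite _
  have key := Finset.card_le_mul_card_image_of_maps_to
    (s := (orbit (stabilizer G a) b).toFinset ×ˢ (Finset.univ.erase (0 : F)))
    (t := Finset.univ.erase (0 : V ⧸ span F {a})) (f := fun x => Submodule.Quotient.mk (x.2 • x.1))
    (fun x hx => by
      obtain ⟨h1, h2⟩ := Finset.mem_product.1 hx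
      obtain ⟨g, hg⟩ := Set.mem_toFinset.1 h1
      refine Finset.mem_erase.2 ⟨fun e => hb ?_, Finset.mem_univ _⟩
      rw [Submodule.Quotient.mk_eq_zero, smul_mem_iff _ (Finset.mem_erase.1 h2).1, ← hg] at e
      exact (smul_mem_l1 (g : G)).1 (by rw [show (g : G) • a = a from g.2]; exact e))
    (Finset.univ.filter fun x : F × F => LTa G a b x.1 x.2).card (fun w _ => by
      rcases Finset.eq_empty_or_nonempty (Finset.filter (fun x : V × F =>
        (Submodule.Quotient.mk (x.2 • x.1) : V ⧸ span F {a}) = w)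
        ((orbit (stabilizer G a) b).toFinset ×ˢ (Finset.univ.erase (0 : F)))) with e | ⟨y, hy⟩
      · rw [e]; exact Nat.zero_le _
      refine (Finset.card_le_card fun x hx => ?_).trans
        (Finset.card_image_le (f := fun z : F × F => (z.1 • y.1 + z.2 • a, y.2 / z.1)))
      obtain ⟨hy1, hy2⟩ := Finset.mem_filter.1 hy
      obtain ⟨hx1, hx2⟩ := Finset.mem_filter.1 hx
      obtain ⟨g, hg⟩ := Set.mem_toFinset.1 (Finset.mem_product.1 hy1).1
      obtain ⟨k, hk⟩ := Set.mem_toFinset.1 (Finset.mem_product.1 hx1).1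
      have y0 := (Finset.mem_erase.1 (Finset.mem_product.1 hy1).2).1
      have x0 := (Finset.mem_erase.1 (Finset.mem_product.1 hx1).2).1
      obtain ⟨c, hc⟩ := mem_span_singleton.1 ((Submodule.Quotient.eq _).1 (hx2.trans hy2.symm))
      have e : x.1 = (y.2 / x.2) • y.1 + (c / x.2) • a := by
        rw [div_eq_inv_mul, div_eq_inv_mul, mul_smul, mul_smul, hc, ← smul_add, add_sub_cancel, smul_smul,
          inv_mul_cancel₀ x0, one_smul]
      refine Finset.mem_image.2 ⟨(y.2 / x.2, c / x.2), Finset.mem_filter.2 ⟨Finset.mem_univ _,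
        ((g⁻¹ * k : stabilizer G a) : G), (g⁻¹ * k).2, ?_⟩, Prod.ext e.symm (by field_simp)⟩
      rw [Subgroup.coe_mul, mul_smul, Subgroup.coe_inv, inv_smul_eq_iff, smul_add, gs, gs,
        show (g : G) • a = a from g.2, show (g : G) • b = y.1 from hg, show (k : G) • b = x.1 from hk]
      exact e)
  have c1 : Fintype.card (V ⧸ span F {a}) = Fintype.card F ^ (finrank F V - 1) := by
    rw [← Nat.card_eq_fintype_card, card_top_eq_pow (F := F), ← rk_quot a0]; rfl
  rw [Finset.card_product, Finset.card_erase_of_mem (Finset.mem_univ _),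
    Finset.card_erase_of_mem (Finset.mem_univ _), Finset.card_univ, Finset.card_univ, c1,
    ← Set.ncard_eq_toFinset_card'] at key
  exact key

open Classical in
theorem lt_of_card {a b : V} (hb : b ∉ span F {a})
    (c0 : Fintype.card F ≤ (Finset.univ.filter fun x : F × F => LTa G a b x.1 x.2).card) :
    LT F G a b := by
  intro γ
  suffices LTa G a b 1 γ by simpa [LTa] using this
  by_contra hγ
  obtain ⟨U, hU⟩ : ∃ U : Finset F, ∀ β, β ∈ U ↔ LTa G a b 1 β :=
    ⟨Finset.univ.filter fun β => LTa G a b 1 β, by simp⟩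
  obtain ⟨D, hD⟩ : ∃ D : Finset F, ∀ α, α ∈ D ↔ ∃ β, LTa G a b α β :=
    ⟨Finset.univ.filter fun α => ∃ β, LTa G a b α β, by simp⟩
  have sub : ∀ {α β β' : F}, LTa G a b α β → LTa G a b α β' → β - β' ∈ U := fun {α β β'} h1 h2 => by
    have := (h2.inv hb).mul h1
    rw [inv_mul_cancel₀ (h1.ne hb)] at this
    rw [hU]; convert this using 1; field_simp [h1.ne hb]; ring
  have c1 : (Finset.univ.filter fun x : F × F => LTa G a b x.1 x.2).card ≤ U.card * D.card := by
    refine Finset.card_le_mul_card_image_of_maps_to (f := Prod.fst)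
      (fun x hx => (hD _).2 ⟨_, (Finset.mem_filter.1 hx).2⟩) _ fun α hα => ?_
    obtain ⟨β, hβ⟩ := (hD α).1 hα
    refine (Finset.card_le_card fun x hx => ?_).trans (Finset.card_image_le (f := fun u => (α, u + β)))
    obtain ⟨h1, rfl⟩ := Finset.mem_filter.1 hx
    exact Finset.mem_image.2 ⟨_, sub (Finset.mem_filter.1 h1).2 hβ, Prod.ext rfl (sub_add_cancel _ _)⟩
  have U0 : (0 : F) ∈ U := (hU 0).2 ⟨1, one_smul _ _, by simp⟩
  have Us : ∀ u ∈ U, ∀ v ∈ U, u - v ∈ U := fun u hu v hv => sub ((hU u).1 hu) ((hU v).1 hv)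
  have DU : ∀ α ∈ insert 0 D, ∀ u ∈ U, α * u ∈ U := fun α hα u hu => by
    rcases Finset.mem_insert.1 hα with rfl | hα
    · rwa [zero_mul]
    obtain ⟨β, hβ⟩ := (hD α).1 hα
    have := sub (((hU u).1 hu).mul hβ) (by rwa [one_mul])
    rwa [add_sub_cancel_right] at this
  have c2 := Finset.card_le_card_of_injOn (s := insert 0 D ×ˢ U) (t := Finset.univ)
    (fun x => x.1 * γ + x.2) (fun _ _ => Finset.mem_coe.2 (Finset.mem_univ _)) fun x hx y hy e => by
      obtain ⟨x1, x2⟩ := Finset.mem_product.1 (Finset.mem_coe.1 hx)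
      obtain ⟨y1, y2⟩ := Finset.mem_product.1 (Finset.mem_coe.1 hy)
      have e1 : x.1 = y.1 := by
        by_contra c
        have m0 := sub_ne_zero.2 c
        obtain ⟨u, hu, e2⟩ := Finset.surj_on_of_inj_on_of_card_le (s := U) (t := U)
          (fun u _ => (x.1 - y.1) * u) (fun u hu => by
            rw [sub_mul]; exact Us _ (DU _ x1 u hu) _ (DU _ y1 u hu))
          (fun _ _ _ _ e => mul_left_cancel₀ m0 e) le_rfl _ (Us _ y2 _ x2)
        have e3 : u = γ := mul_left_cancel₀ m0 (by linear_combination -e2 - e)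
        exact hγ ((hU γ).1 (e3 ▸ hu))
      refine Prod.ext e1 ?_
      simp only [e1] at e
      exact add_left_cancel e
  rw [Finset.card_product, Finset.card_insert_of_notMem (fun c => by
    obtain ⟨β, hβ⟩ := (hD 0).1 c
    exact hβ.ne hb rfl), Finset.card_univ] at c2
  have := Finset.card_pos.2 ⟨0, U0⟩
  nlinarith

theorem plane_nm {a b : V} (hb : b ∉ span F {a}) {l : F} (hl : l ≠ 0) (m : F) :
    l • b + m • a ∉ span F {a} := fun k =>
  hb ((smul_mem_iff _ hl).1 ((add_mem_cancel_right (smul_mem _ m (mem_span_singleton_self a))).1 k))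

theorem plane_inj {a b : V} (a0 : a ≠ 0) (hb : b ∉ span F {a}) {l m l' m' : F}
    (e : l • b + m • a = l' • b + m' • a) : l = l' ∧ m = m' := by
  obtain rfl : l = l' := by
    by_contra k
    exact plane_nm hb (sub_ne_zero.2 k) 0 (mem_span_singleton.2 ⟨m' - m, by
      linear_combination (norm := module) -e⟩)
  exact ⟨rfl, smul_left_injective F a0 (add_left_cancel e)⟩

theorem plane_card {a b : V} {l : F} (hl : l ≠ 0) (m : F) :
    (orbit (stabilizer G a) (l • b + m • a)).ncard = (orbit (stabilizer G a) b).ncard := by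
  rw [← index_stabilizer, ← index_stabilizer]
  congr 1
  ext g
  change (g : G) • (l • b + m • a) = _ ↔ (g : G) • b = _
  rw [smul_add, gs, gs, show (g : G) • a = a from g.2, add_left_inj, smul_right_inj hl]

end

variable {F L : Type*} [Field F] [Fintype F] [Field L] [Algebra F L] [Finite L]
  {G : Subgroup (L ≃ₗ[F] L)}

theorem MinOv.scal8 (h : MinOv G) (h7 : finrank F L = 7) (hq : Fintype.card F = 8) {s : F}
    (hs : s ≠ 0) : ∃ z : G, ∀ x : L, z • x = s • x := by
  have s0 : algebraMap F L s ≠ 0 := (map_ne_zero _).2 hs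
  have : Units.mk0 _ s0 ∈ Z0 F L := mem_Z0.2 ⟨s, rfl, by
    have := FiniteField.pow_card_sub_one_eq_one s hs
    rw [hq] at this
    rwa [h7]⟩
  exact ⟨⟨_, h.mem _ this.1⟩, fun x => by rw [act_mu (u := Units.mk0 _ s0) rfl, Algebra.smul_def]; rfl⟩

theorem MinOv.lt8 (h : MinOv G) (hn : (finrank F L).Prime) (h7 : finrank F L = 7)
    (hq : Fintype.card F = 8) {a : L} (ha : Good G a) {c : Lˣ} (hc : c ∈ C0 F L) (hc' : c ∉ S0 F L) :
    LT F G a (c * a) := by
  classical
  by_contra nlt
  have a0 := ha.1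
  have hb := TTsAux.nm a0 hc'
  obtain ⟨nZ, nT⟩ := num8 hn h7 hq
  have hm := card_orb (G := G) a0
  rw [hq, h7] at hm
  have r7 : ∀ l m : F, l ≠ 0 →
      (Finset.univ.filter fun x : F × F => LTa G a (l • (c * a) + m • a) x.1 x.2).card ≤ 7 :=
    fun l m hl => by
      by_contra k
      have := (lt_of_card (G := G) (plane_nm hb hl m) (by omega)).shift (inv_ne_zero hl) (-(l⁻¹ * m))
      refine nlt (by convert this using 1; match_scalars <;> field_simp <;> ring)
  have kb : 224694 < (orbit (stabilizer G a) ((c : L) * a)).ncard := by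
    by_contra k
    have k1 := h.phi a0 c
    have k2 := h.vest hn h7 ha (h.mem_orb a hc) hc hc'
    rw [nZ, nT] at k1
    have k3 := num7_cast (by omega) k2
    rw [nT, h7] at k3
    generalize Nat.card {u : orbit G a // ∃ g : G, g • a = u ∧ g • ((c : L) * a) = c * u} = φ at k1 k3
    generalize (orbit (stabilizer G a) ((c : L) * a)).ncard = κ at k k3
    generalize Nat.card (orbit G a) = m at hm k3
    have a1 : 74899 ^ 2 * (42799 - 1) ^ 2 ≤ (φ - κ) ^ 2 * (42799 - 1) ^ 2 := by gcongr; omega
    have a2 : κ * (7 + 1) * m ^ 2 ≤ 224694 * (7 + 1) * 2097151 ^ 2 := by gcongr <;> omega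
    omega
  have cC : Nat.card (C0 F L) = 299593 := by rw [← Sing.card_T0, nZ, nT]
  have count : ∀ {ι : Type _} [Finite ι] (l m : ι → F), (∀ i, l i ≠ 0) →
      (∀ i j, l i = l j → m i = m j → i = j) → (∀ i, l i • (c * a) + m i • a ∈ orbit G a) →
      Nat.card ι * 299593 ≤ 7 * Nat.card (orbit G a) := fun {ι : Type _} _ l m hl inj mem => by
    have ex : ∀ i, ∃ u : orbit G a, ∃ g : G, g • a = u ∧ g • (l i • (c * a) + m i • a) = c * u :=
      fun i => by
        by_contra k
        have k2 := h.vest hn h7 ha (mem i) hc hc'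
        have : IsEmpty {u : orbit G a // ∃ g : G, g • a = u ∧ g • (l i • (c * a) + m i • a) = c * u} :=
          ⟨fun u => k ⟨u.1, u.2⟩⟩
        rw [Nat.card_of_isEmpty, plane_card (hl i), nT, h7, Nat.cast_zero, zero_sub, neg_sq] at k2
        generalize (orbit (stabilizer G a) ((c : L) * a)).ncard = κ at kb k2
        generalize Nat.card (orbit G a) = M at hm k2
        have k3 : κ ^ 2 * (42799 - 1) ^ 2 ≤ κ * (7 + 1) * M ^ 2 := by exact_mod_cast k2
        have a2 : κ * (7 + 1) * M ^ 2 ≤ κ * (7 + 1) * 2097151 ^ 2 := by gcongr; omega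
        have a3 : κ * 224694 ≤ κ ^ 2 := by rw [sq]; gcongr
        omega
    choose u g h1 h2 using ex
    have := Fintype.ofFinite ι
    have := Fintype.ofFinite (C0 F L)
    have := Fintype.ofFinite (orbit G a)
    have key := Finset.card_le_mul_card_image_of_maps_to (s := (Finset.univ : Finset (ι × C0 F L)))
      (t := (Finset.univ : Finset (orbit G a)))
      (f := fun x => (⟨_, h.mem x.2 x.2.2⟩ : G) • u x.1) (fun _ _ => Finset.mem_univ _) 7 fun w _ => by
        rcases Finset.eq_empty_or_nonempty (Finset.univ.filter fun x : ι × C0 F L =>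
          (⟨_, h.mem x.2 x.2.2⟩ : G) • u x.1 = w) with e | ⟨y, hy⟩
        · rw [e]; exact Nat.zero_le _
        have ev : ∀ x ∈ Finset.univ.filter fun x : ι × C0 F L =>
            (⟨_, h.mem x.2 x.2.2⟩ : G) • u x.1 = w, ((x.2 : Lˣ) : L) * u x.1 = w := fun x hx => by
          rw [← (Finset.mem_filter.1 hx).2]
          exact (act_mu (u := x.2) (g := ⟨_, h.mem x.2 x.2.2⟩) rfl _).symm
        refine le_trans (Finset.card_le_card_of_injOn
          (fun x => (l x.1 / l y.1, m x.1 - l x.1 / l y.1 * m y.1)) (fun x hx => ?_)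
          fun x hx x' hx' e => ?_) (r7 _ (m y.1) (hl y.1))
        · refine Finset.mem_coe.2 (Finset.mem_filter.2 ⟨Finset.mem_univ _,
            (⟨_, h.mem x.2 x.2.2⟩ * g x.1)⁻¹ * (⟨_, h.mem y.2 y.2.2⟩ * g y.1), ?_, ?_⟩)
          · rw [mul_smul, inv_smul_eq_iff, mul_smul, mul_smul, h1, h1, act_mu (u := y.2) rfl,
              act_mu (u := x.2) rfl, ev x hx, ev y hy]
          · have e : (l x.1 / l y.1) • (l y.1 • ((c : L) * a) + m y.1 • a) +
                (m x.1 - l x.1 / l y.1 * m y.1) • a = l x.1 • (c * a) + m x.1 • a := by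
              have := hl y.1
              match_scalars <;> field_simp <;> ring
            rw [mul_smul, inv_smul_eq_iff, mul_smul, mul_smul, h2, e, h2, act_mu (u := y.2) rfl,
              act_mu (u := x.2) rfl, mul_left_comm, ev y hy, mul_left_comm, ev x hx]
        · obtain ⟨i, t⟩ := x
          obtain ⟨i', t'⟩ := x'
          obtain ⟨e1, e2⟩ := Prod.ext_iff.1 e
          dsimp only at e1 e2
          rw [e1, sub_left_inj] at e2
          obtain rfl := inj i i' ((div_left_inj' (hl _)).1 e1) e2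
          have u0 : (u i : L) ≠ 0 := by rw [← h1]; exact smul_ne a0
          rw [Subtype.ext (Units.ext (mul_right_cancel₀ u0 ((ev _ hx).trans (ev _ hx').symm)) :
            t.1 = t'.1)]
    rwa [Finset.card_univ, Finset.card_univ, ← Nat.card_eq_fintype_card, ← Nat.card_eq_fintype_card,
      Nat.card_prod, cC] at key
  have r1 := r7 1 0 one_ne_zero
  rw [one_smul, zero_smul, add_zero] at r1
  have r2 := LTa.count (G := G) a0 hb
  rw [hq, h7] at r2
  obtain ⟨α0, β0, b0, hA⟩ : ∃ α β : F, β ≠ 0 ∧ LTa G a (c * a) α β := by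
    by_contra k
    have := rk_quot (F := F) a0
    have : Finite (L ⧸ span F {a}) := Finite.of_surjective _ (Submodule.Quotient.mk_surjective _)
    refine h.proj8 hn h7 hq a0 hc hc'
      (fun x y => ∃ (g : G) (t : F), t ≠ 0 ∧ g • a = x ∧ y = t • g • ((c : L) * a))
      (fun g x y ⟨k, t, t0, e1, e2⟩ => ⟨g * k, t, t0, by rw [mul_smul, e1], by rw [e2, mul_smul g k]; exact gs g t _⟩)
      (fun s x y s0 ⟨k, t, t0, e1, e2⟩ => ?_) ⟨1, 1, one_ne_zero, one_smul _ _, by simp⟩
      (Q := L ⧸ span F {a}) (by omega) (fun y _ => Submodule.Quotient.mk y)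
      (fun y ⟨g, t, t0, e1, e2⟩ _ e => hb ?_) fun y ⟨g, t, t0, e1, e2⟩ y' ⟨g', t', t0', e1', e2'⟩ τ e => ?_
    · obtain ⟨z, hz⟩ := h.scal8 h7 hq s0
      exact ⟨z * k, t / s, div_ne_zero t0 s0, by rw [mul_smul, e1, hz], by
        rw [mul_smul, hz, smul_smul, div_mul_cancel₀ _ s0, e2]⟩
    · rw [Submodule.Quotient.mk_eq_zero, e2, smul_mem_iff _ t0] at e
      exact (smul_mem_l1 g).1 (by rw [e1]; exact e)
    · rw [← Submodule.Quotient.mk_smul, Submodule.Quotient.eq] at e
      obtain ⟨μ, hμ⟩ := mem_span_singleton.1 e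
      obtain rfl : μ = 0 := by
        by_contra m0
        refine k ⟨t'⁻¹ * τ * t, t'⁻¹ * μ, mul_ne_zero (inv_ne_zero t0') m0, g⁻¹ * g',
          by rw [mul_smul, e1', inv_smul_eq_iff, e1], ?_⟩
        rw [mul_smul, inv_smul_eq_iff, smul_add, gs, gs, e1, mul_smul, ← e2, mul_smul, mul_smul, hμ,
          ← smul_add, add_sub_cancel, e2', inv_smul_smul₀ t0']
      exact mem_span_singleton.2 ⟨τ, (sub_eq_zero.1 (hμ.symm.trans (zero_smul F a))).symm⟩
  have cF : Nat.card Fˣ = 7 := by rw [Sing.card_Fu, hq]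
  have c1 := count (ι := (Finset.univ.filter fun x : F × F => LTa G a (c * a) x.1 x.2) × Fˣ)
    (fun x => x.2 * x.1.1.1) (fun x => x.2 * x.1.1.2)
    (fun x => mul_ne_zero x.2.ne_zero ((Finset.mem_filter.1 x.1.2).2.ne hb))
    (by
      rintro ⟨⟨⟨α, β⟩, h1⟩, z⟩ ⟨⟨⟨α', β'⟩, h2⟩, z'⟩ e1 e2
      dsimp only at e1 e2
      have f1 : α' = (z / z' : Fˣ) * α := by push_cast; field_simp; linear_combination -e1
      have f2 : β' = (z / z' : Fˣ) * β := by push_cast; field_simp; linear_combination -e2
      by_cases t1 : z / z' = 1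
      · obtain rfl := div_eq_one.1 t1
        rw [t1, Units.val_one, one_mul] at f1 f2
        subst f1 f2
        rfl
      exfalso
      have g1 := (Finset.mem_filter.1 h1).2
      have g2 := (g1.inv hb).mul (Finset.mem_filter.1 h2).2
      have g0 := g1.ne hb
      dsimp only at g0 g2
      generalize z / z' = t at f1 f2 t1
      have g3 : LTa G a (c * a) (t : F) 0 := by
        convert g2 using 1 <;> rw [f1] <;> [skip; rw [f2]] <;> field_simp <;> ring
      have g4 : ∀ n : ℕ, LTa G a (c * a) ((t ^ n : Fˣ) : F) 0 := fun n => by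
        induction n with
        | zero => exact ⟨1, one_smul _ _, by simp⟩
        | succ n ih => simpa [pow_succ] using ih.mul g3
      have : Fact (Nat.Prime 7) := ⟨by norm_num⟩
      have := Finset.card_le_card (s := insert (α0, β0) (Finset.univ.image fun s : Fˣ => ((s : F), (0 : F))))
        (t := Finset.univ.filter fun x : F × F => LTa G a (c * a) x.1 x.2) fun x hx => by
          rcases Finset.mem_insert.1 hx with rfl | hx
          · exact Finset.mem_filter.2 ⟨Finset.mem_univ _, hA⟩
          obtain ⟨s, -, rfl⟩ := Finset.mem_image.1 hx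
          obtain ⟨n, rfl⟩ := mem_powers_iff_mem_zpowers.2 (mem_zpowers_of_prime_card cF t1 (g' := s))
          exact Finset.mem_filter.2 ⟨Finset.mem_univ _, g4 n⟩
      rw [Finset.card_insert_of_notMem (by simp [b0.symm]), Finset.card_image_of_injective _
        (fun s s' e => Units.ext (Prod.ext_iff.1 e).1), Finset.card_univ, ← Nat.card_eq_fintype_card,
        cF] at this
      omega)
    (by
      rintro ⟨⟨⟨α, β⟩, h1⟩, z⟩
      obtain ⟨g, -, e⟩ := (Finset.mem_filter.1 h1).2
      obtain ⟨s, hs⟩ := h.scal8 h7 hq z.ne_zero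
      obtain ⟨k, hk⟩ := h.mem_orb a hc
      refine ⟨s * g * k, ?_⟩
      dsimp only at hk e ⊢
      rw [mul_smul, mul_smul, hk, e, hs, smul_add, smul_smul, smul_smul])
  rw [Nat.card_prod, cF, Nat.card_eq_fintype_card, Fintype.card_coe] at c1
  have all : ∀ y : L, y ≠ 0 → y ∈ orbit G a := fun y y0 => by
    by_contra k
    have := Nat.card_le_card_of_injective (fun o : Option (Option (orbit G a)) =>
      o.elim (0 : L) fun o => o.elim y Subtype.val) (by
        rintro (_ | _ | ⟨_, g, rfl⟩) (_ | _ | ⟨_, g', rfl⟩) e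
        · rfl
        · exact (y0 e.symm).elim
        · exact (smul_ne a0 e.symm).elim
        · exact (y0 e).elim
        · rfl
        · exact (k ⟨g', e.symm⟩).elim
        · exact (smul_ne a0 e).elim
        · exact (k ⟨g, e⟩).elim
        · exact congrArg (fun x => some (some x)) (Subtype.ext e))
    rw [Finite.card_option, Finite.card_option, card_top_eq_pow (F := F) (V := L), hq, h7] at this
    omega
  have c2 := count (ι := Fˣ × F) (fun x => x.1) (fun x => x.2) (fun x => x.1.ne_zero)
    (fun x y e1 e2 => Prod.ext (Units.ext e1) e2)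
    fun x => all _ (ne0_of_notMem (plane_nm hb x.1.ne_zero x.2))
  rw [Nat.card_prod, cF, Nat.card_eq_fintype_card, hq] at c2
  omega

end Cfsg.Agent.SNG
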