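import Cfsg.Agent.SNG.Defs

/-! Numerical inequalities for the Singer cycle in dimension seven. -/

set_option autoImplicit false

namespace Cfsg.Agent.SNG

/-- the numbers `q, n = 7, d = |Z|, v = |T|` -/
structure Num7 (q n d v : ℕ) : Prop where
  q2 : 2 ≤ q
  pr : n.Prime
  n7 : n = 7
  eq : d * v * (q - 1) + 1 = q ^ n
  d1 : d = 1 ∨ d = n
  dq : d ∣ q - 1
  cq : v.Coprime (q - 1)
  cn : v.Coprime n

variable {q n d v : ℕ}

theorem Num7.dlt (h : Num7 q n d v) : d < q := by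
  have h1 := h.q2
  have h2 := Nat.le_of_dvd (by omega) h.dq
  omega

theorem Num7.aux (h : Num7 q n d v) : q ^ 6 + q ^ 5 ≤ d * v ∧ q ^ 5 ≤ v ∧ 96 ≤ v := by
  have hq := h.q2
  have hd := h.dlt
  have h5 : q ^ 6 + q ^ 5 ≤ d * v := by
    obtain ⟨s, rfl⟩ := Nat.exists_eq_add_of_le' (show 1 ≤ q by omega)
    have h6 := h.eq
    rw [Nat.add_sub_cancel, h.n7] at h6
    have h8 : 1 ≤ (s + 1) ^ 5 := Nat.succ_le_of_lt (by positivity)
    have h7 : (s + 1) ^ 7 = (s + 1) ^ 5 * (s + 1) ^ 2 := by ring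
    have h9 : (s + 1) ^ 6 = (s + 1) ^ 5 * (s + 1) := by ring
    rw [h9]
    rw [h7] at h6
    generalize (s + 1) ^ 5 = A at *
    refine Nat.le_of_mul_le_mul_right (c := s) ?_ (by omega)
    nlinarith
  have h6 : q ^ 5 ≤ v := by
    refine Nat.le_of_mul_le_mul_right (c := q) ?_ (by omega)
    have h6 : d * v ≤ v * q := by nlinarith
    have h7 : q ^ 5 * q = q ^ 6 := by ring
    omega
  refine ⟨h5, h6, ?_⟩
  rcases h.d1 with rfl | e
  · have a1 : 2 ^ 6 ≤ q ^ 6 := Nat.pow_le_pow_left hq _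
    have a2 : 2 ^ 5 ≤ q ^ 5 := Nat.pow_le_pow_left hq _
    omega
  · have a2 : 8 ^ 5 ≤ q ^ 5 := Nat.pow_le_pow_left (by have := h.n7; omega) _
    omega

theorem Num7.one_lt (h : Num7 q n d v) : v ≠ 1 := by
  have := h.aux.2.2
  omega

theorem Num7.hv1 (h : Num7 q n d v) {e : ℕ} (he : e ≤ n) : e * (e + 3) + 1 ≤ v := by
  have h1 := h.aux.2.2
  have h2 := h.n7
  have h4 : e * (e + 3) ≤ 7 * 10 := Nat.mul_le_mul (by omega) (by omega)
  omega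

theorem Num7.hv2 (h : Num7 q n d v) {e m : ℕ} (he : e ≤ n) (hm : m + 1 ≤ q ^ n) :
    e * m + e * (v - 1) < (v - 1) ^ 2 := by
  obtain ⟨-, h1, h2⟩ := h.aux
  have hq := h.q2
  have hd := h.dlt
  have h3 := h.eq
  have h7 := h.n7
  have h5 : 9 * q ^ 2 ≤ v := by
    rcases Nat.lt_or_ge q 3 with a | a
    · obtain rfl : q = 2 := by omega
      omega
    · have a1 : 3 ^ 3 ≤ q ^ 3 := Nat.pow_le_pow_left a _
      calc 9 * q ^ 2 ≤ q ^ 3 * q ^ 2 := Nat.mul_le_mul_right _ (by omega)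
        _ = q ^ 5 := by ring
        _ ≤ v := h1
  obtain ⟨s, rfl⟩ := Nat.exists_eq_add_of_le' (show 1 ≤ q by omega)
  rw [Nat.add_sub_cancel] at h3
  have h4 : m ≤ s * s * v := by
    have : d * v * s ≤ s * v * s := Nat.mul_le_mul_right _ (Nat.mul_le_mul_right _ (by omega))
    nlinarith
  have h6 : 7 * (s * s + 1) + 2 ≤ v := by nlinarith
  obtain ⟨w, rfl⟩ := Nat.exists_eq_add_of_le' (show 1 ≤ v by omega)
  rw [Nat.add_sub_cancel]
  have h7 : e * m ≤ 7 * (s * s * (w + 1)) := Nat.mul_le_mul (by omega) h4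
  have h8 : e * w ≤ 7 * (w + 1) := Nat.mul_le_mul (by omega) (by omega)
  have h9 : (7 * (s * s + 1) + 1) * (w + 1) ≤ w * (w + 1) := Nat.mul_le_mul_right _ (by omega)
  nlinarith

theorem num7_cast {e m k φ w : ℕ} (hφ : k ≤ φ)
    (hk : ((φ : ℝ) - k) ^ 2 * (w : ℝ) ^ 2 ≤ k * (e + 1) * (m : ℝ) ^ 2) :
    (φ - k) ^ 2 * w ^ 2 ≤ k * (e + 1) * m ^ 2 := by
  rw [← Nat.cast_sub hφ] at hk
  exact_mod_cast hk

theorem Num7.big (h : Num7 q n d v) (h8 : q ≠ 8) (h15 : q ≠ 15) {m k φ : ℕ} (hm : m + 1 ≤ q ^ n)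
    (hφ : d * v ≤ φ)
    (hk : ((φ : ℝ) - k) ^ 2 * ((v - 1 : ℕ) : ℝ) ^ 2 ≤ k * (n + 1) * (m : ℝ) ^ 2) : q ^ (n - 1) ≤ k := by
  obtain ⟨h4, h3, h96⟩ := h.aux
  have hq := h.q2
  have h7 := h.n7
  subst h7
  by_contra hlt
  rw [not_le, show 7 - 1 = 6 from rfl] at hlt
  have hk' := num7_cast (by omega) hk
  have hc : q ^ 5 ≤ φ - k := by omega
  by_cases h2 : q = 2
  · subst h2
    have e1 := h.eq
    obtain rfl : d = 1 := by simpa using h.dq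
    obtain rfl : v = 127 := by omega
    have a1 : 64 ^ 2 * (127 - 1) ^ 2 ≤ (φ - k) ^ 2 * (127 - 1) ^ 2 := by gcongr; omega
    have a2 : k * (7 + 1) * m ^ 2 ≤ 63 * (7 + 1) * 127 ^ 2 := by gcongr <;> omega
    omega
  have h1 : 8 * d ^ 2 < q ^ 2 := by
    rcases h.d1 with rfl | rfl
    · nlinarith [show 3 ≤ q by omega]
    · obtain ⟨t, ht⟩ := h.dq
      nlinarith [show 22 ≤ q by omega]
  have hqv : q ≤ v := (Nat.le_self_pow (by omega) q).trans h3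
  obtain ⟨w, rfl⟩ := Nat.exists_eq_add_of_le' (show 1 ≤ v by omega)
  rw [Nat.add_sub_cancel] at hk'
  have hm' : m ≤ d * q * w := by
    have h5 := h.eq
    obtain ⟨s, rfl⟩ := Nat.exists_eq_add_of_le' (show 1 ≤ q by omega)
    rw [Nat.add_sub_cancel] at h5
    have h6 : d * s ≤ d * w := Nat.mul_le_mul_left _ (by omega)
    nlinarith
  have h5 : (q ^ 5) ^ 2 * w ^ 2 ≤ q ^ 6 * (7 + 1) * (d * q * w) ^ 2 :=
    calc (q ^ 5) ^ 2 * w ^ 2 ≤ (φ - k) ^ 2 * w ^ 2 := by gcongr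
      _ ≤ k * (7 + 1) * m ^ 2 := hk'
      _ ≤ _ := by gcongr
  have h6 : 0 < q ^ 8 * w ^ 2 := by
    have : 0 < w := by omega
    have : 0 < q := by omega
    positivity
  have h7 : 8 * d ^ 2 * (q ^ 8 * w ^ 2) < q ^ 2 * (q ^ 8 * w ^ 2) :=
    Nat.mul_lt_mul_of_pos_right h1 h6
  have h8 : (q ^ 5) ^ 2 * w ^ 2 = q ^ 2 * (q ^ 8 * w ^ 2) := by ring
  have h9 : q ^ 6 * (7 + 1) * (d * q * w) ^ 2 = 8 * d ^ 2 * (q ^ 8 * w ^ 2) := by ring
  omega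

theorem Num7.norm (h : Num7 q n d v) {N : ℕ}
    (hN : N * (q ^ n - 1) ≤ d * (d * q ^ n + N * (q ^ (n - 1) + q ^ 2))) : N < v := by
  obtain ⟨-, h3, -⟩ := h.aux
  have hq := h.q2
  have hd := h.dlt
  have hn := h.n7
  subst hn
  obtain ⟨P, hP⟩ : ∃ P, P = q ^ 2 := ⟨_, rfl⟩
  have h2 : 4 ≤ P := by rw [hP]; nlinarith
  rw [show q ^ 7 = P * q ^ 5 by rw [hP]; ring, show q ^ (7 - 1) = P * q ^ 4 by rw [hP]; ring] at hN
  rw [show q ^ 5 = P * q ^ 3 by rw [hP]; ring] at h3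
  clear hP
  by_contra hlt
  have h4 : P * q ^ 3 ≤ N := h3.trans (not_lt.1 hlt)
  obtain ⟨s, rfl⟩ := Nat.exists_eq_add_of_le' (show 1 ≤ q by omega)
  have hds : d ≤ s := by omega
  have h5 : 1 ≤ P * (s + 1) ^ 5 := Nat.succ_le_of_lt (Nat.mul_pos (by omega) (by positivity))
  have h6 : N * (P * (s + 1) ^ 5) ≤ N + s * (s * (P * (s + 1) ^ 5) +
      N * (P * (s + 1) ^ 4 + (s + 1) ^ 2)) := by
    have h7 : d * (d * (P * (s + 1) ^ 5) + N * (P * (s + 1) ^ 4 + (s + 1) ^ 2)) ≤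
        s * (s * (P * (s + 1) ^ 5) + N * (P * (s + 1) ^ 4 + (s + 1) ^ 2)) := by gcongr
    have h8 : N * (P * (s + 1) ^ 5) = N * (P * (s + 1) ^ 5 - 1) + N := by
      rw [← Nat.mul_succ, Nat.succ_eq_add_one, Nat.sub_add_cancel h5]
    omega
  have h7 : s * s * (P * (s + 1) ^ 5) ≤ N * (s + 1) ^ 4 :=
    calc s * s * (P * (s + 1) ^ 5) ≤ (s + 1) * (s + 1) * (P * (s + 1) ^ 5) := by gcongr <;> omega
      _ = P * (s + 1) ^ 3 * (s + 1) ^ 4 := by ring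
      _ ≤ _ := by gcongr
  have h8 : N * (1 + s * (s + 1) ^ 2) ≤ N * (s + 1) ^ 4 := by
    refine Nat.mul_le_mul_left _ ?_
    nlinarith [Nat.zero_le (s ^ 2), Nat.zero_le (s ^ 3), Nat.zero_le (s ^ 4)]
  have h9 : N * (P * (s + 1) ^ 4) ≤ N * (2 * (s + 1) ^ 4) := by nlinarith
  have h10 : 0 < N := lt_of_lt_of_le (Nat.mul_pos (by omega) (by positivity)) h4
  have h11 := Nat.le_of_mul_le_mul_right (Nat.le_of_mul_le_mul_left h9 h10) (by positivity)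
  omega

end Cfsg.Agent.SNG
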