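import Cfsg.Agent.SNG.Main
import Cfsg.Agent.X7.Num

/-! The Singer cycle in dimension seven: port of the files `Sing`, `SingB`, `Norm` of project SNG. -/

set_option autoImplicit false
set_option linter.unusedSectionVars false

namespace Cfsg.Agent.SNG

open MulAction Module
open scoped ComplexConjugate

variable {F L : Type*} [Field F] [Fintype F] [Field L] [Algebra F L] [Finite L]
  {G : Subgroup (L ≃ₗ[F] L)}

open Sing SingB

theorem num7 (hn : (finrank F L).Prime) (h7 : finrank F L = 7) :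
    Num7 (Fintype.card F) (finrank F L) (Nat.card (Z0 F L)) (Nat.card (T0 F L)) := by
  have q2 : 2 ≤ Fintype.card F := Fintype.one_lt_card
  have e := card_mul F L
  rw [← card_T0] at e
  obtain ⟨c1, c2⟩ := arith (s := Fintype.card F - 1) (by omega) hn (by omega) (card_Z0 F L)
    (e.trans (by rw [Nat.sub_add_cancel (by omega)]))
  refine ⟨q2, hn, h7, e, ?_, ?_, c1, c2⟩
  · rw [card_Z0]; exact (Nat.dvd_prime hn).1 (Nat.gcd_dvd_right _ _)
  · rw [card_Z0]; exact Nat.gcd_dvd_left _ _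

theorem T0_sup_Z07 (hn : (finrank F L).Prime) (h7 : finrank F L = 7) :
    T0 F L ⊔ Z0 F L = C0 F L := by
  have h := num7 hn h7
  refine Subgroup.eq_of_le_of_card_ge (sup_le inf_le_left inf_le_left) (Nat.le_of_dvd Nat.card_pos ?_)
  rw [← card_T0]
  exact (h.cq.coprime_dvd_right h.dq).symm.mul_dvd_of_dvd_of_dvd (Subgroup.card_dvd_of_le le_sup_right)
    (Subgroup.card_dvd_of_le le_sup_left)

theorem T0_inf_S07 (hn : (finrank F L).Prime) (h7 : finrank F L = 7) : T0 F L ⊓ S0 F L = ⊥ := by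
  have h := (num7 hn h7).cq
  rw [← card_S0 F L] at h
  exact disjoint_iff.1 (Subgroup.disjoint_of_coprime_natCard h)

theorem exists_t7 (hn : (finrank F L).Prime) (h7 : finrank F L = 7) :
    ∃ t ∈ T0 F L, ∀ c : F, algebraMap F L c ≠ (t : L) := by
  obtain ⟨⟨t, ht⟩, h1⟩ := (Subgroup.ne_bot_iff_exists_ne_one (H := T0 F L)).1 fun h =>
    (num7 hn h7).one_lt (by rw [h, Subgroup.card_bot])
  refine ⟨t, ht, fun c hc => h1 (Subtype.ext ?_)⟩
  have : t ∈ T0 F L ⊓ S0 F L := ⟨ht, mem_S0.2 ⟨c, hc⟩⟩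
  rwa [T0_inf_S07 hn h7, Subgroup.mem_bot] at this

theorem semi7 (h : Ov G) (hn : (finrank F L).Prime) (h7 : finrank F L = 7) {g : G}
    (hg : g ∈ Subgroup.normalizer (sg G (T0 F L) : Set G)) (u x : L) :
    (g : L ≃ₗ[F] L) (u * x) = (g : L ≃ₗ[F] L) (u * (g : L ≃ₗ[F] L).symm 1) * (g : L ≃ₗ[F] L) x := by
  obtain ⟨t, ht, hc⟩ := exists_t7 hn h7
  have hu : u ∈ Algebra.adjoin F {(t : L)} := adjoin_top hn hc ▸ Algebra.mem_top
  suffices H : ∃ u', ∀ x, (g : L ≃ₗ[F] L) (u * x) = u' * (g : L ≃ₗ[F] L) x by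
    obtain ⟨u', hu'⟩ := H
    rw [hu', hu', LinearEquiv.apply_symm_apply, mul_one]
  induction hu using Algebra.adjoin_induction with
  | mem y hy =>
    obtain rfl : y = t := hy
    obtain ⟨t', -, h1⟩ := mem_sg.1 ((Subgroup.mem_normalizer_iff.1 hg
      ⟨mu F L t, h.mem t (T0_le ht)⟩).1 (mem_sg.2 ⟨t, ht, rfl⟩))
    refine ⟨t', fun x => ?_⟩
    have h2 := LinearEquiv.congr_fun h1 ((g : L ≃ₗ[F] L) x)
    rw [mu_apply] at h2
    rw [h2]
    simp [mu_apply]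
  | algebraMap c => exact ⟨algebraMap F L c, fun x => by
      rw [← Algebra.smul_def, map_smul, Algebra.smul_def]⟩
  | add a b _ _ ha hb =>
    obtain ⟨a', ha⟩ := ha
    obtain ⟨b', hb⟩ := hb
    exact ⟨a' + b', fun x => by rw [add_mul, map_add, ha, hb, add_mul]⟩
  | mul a b _ _ ha hb =>
    obtain ⟨a', ha⟩ := ha
    obtain ⟨b', hb⟩ := hb
    exact ⟨a' * b', fun x => by rw [mul_assoc, ha, hb, mul_assoc]⟩

theorem idx_dvd7 (h : Ov G) (hn : (finrank F L).Prime) (h7 : finrank F L = 7) :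
    (sg G (C0 F L)).relIndex (Subgroup.normalizer (sg G (T0 F L) : Set G)) ∣ finrank F L := by
  let N := Subgroup.normalizer (sg G (T0 F L) : Set G)
  have h1 : ∀ g : N, ∃ σ : L ≃ₐ[F] L, ∀ u x,
      ((g : G) : L ≃ₗ[F] L) (u * x) = σ u * ((g : G) : L ≃ₗ[F] L) x := fun g => by
    let a : L →ₐ[F] L := AlgHom.ofLinearMap (((g : G) : L ≃ₗ[F] L).toLinearMap ∘ₗ
      LinearMap.mulRight F (((g : G) : L ≃ₗ[F] L).symm 1)) (by simp) fun u v => by
        simp only [LinearMap.comp_apply, LinearMap.mulRight_apply, LinearEquiv.coe_coe]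
        rw [mul_assoc, semi7 h hn h7 g.2]
    exact ⟨AlgEquiv.ofBijective a a.bijective, fun u x => semi7 h hn h7 g.2 u x⟩
  choose σ hσ using h1
  have h0 : ∀ g : L ≃ₗ[F] L, g 1 ≠ 0 := fun g => by simp
  let φ : N →* (L ≃ₐ[F] L) := MonoidHom.mk' σ fun a b => AlgEquiv.ext fun u => by
    refine mul_right_cancel₀ (h0 ((a * b : N) : G)) ?_
    rw [← hσ]
    change ((a : G) : L ≃ₗ[F] L) (((b : G) : L ≃ₗ[F] L) (u * 1)) =
      σ a (σ b u) * ((a : G) : L ≃ₗ[F] L) (((b : G) : L ≃ₗ[F] L) 1)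
    rw [hσ, hσ]
  have hk : (sg G (C0 F L)).subgroupOf N = φ.ker := by
    ext g
    rw [Subgroup.mem_subgroupOf, MonoidHom.mem_ker]
    refine ⟨fun hg => AlgEquiv.ext fun u => ?_, fun hg => mem_C h fun x => ?_⟩
    · obtain ⟨c, -, hc⟩ := mem_sg.1 hg
      refine mul_right_cancel₀ (h0 (g : G)) ?_
      change σ g u * _ = u * _
      rw [← hσ, ← hc, mu_apply, mu_apply]
      ring
    · have h2 := hσ g x 1
      rw [mul_one, show σ g = 1 from hg] at h2
      rw [h2, mul_comm]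
      rfl
  rw [Subgroup.relIndex, hk, Subgroup.index_ker, ← IsGalois.card_aut_eq_finrank]
  exact Subgroup.card_subgroup_dvd_card _

theorem Ov.sg_sup7 (h : Ov G) (hn : (finrank F L).Prime) (h7 : finrank F L = 7) :
    sg G (T0 F L) ⊔ sg G (Z0 F L) = sg G (C0 F L) := by
  rw [← T0_sup_Z07 hn h7, sg, sg, sg, Subgroup.map_sup,
    Subgroup.subgroupOf_sup (map_le h T0_le) (map_le h Z0_le)]

theorem Ov.cc7 (h : Ov G) (hn : (finrank F L).Prime) (h7 : finrank F L = 7) :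
    ∃ e, e ∣ finrank F L ∧ CC (sg G (T0 F L)) (sg G (Z0 F L)) e := by
  refine ⟨_, idx_dvd7 h hn h7, fun z hz => ?_, fun a ha b hb => ?_, ?_, fun c hc hz g hg => ?_,
    by rw [h.sg_sup7 hn h7]⟩
  · obtain ⟨u, hu, h1⟩ := mem_sg.1 hz
    obtain ⟨c, hc, -⟩ := mem_Z0.1 hu
    refine Subgroup.mem_center_iff.2 fun g => Subtype.ext (LinearEquiv.ext fun x => ?_)
    change (g : L ≃ₗ[F] L) ((z : L ≃ₗ[F] L) x) = (z : L ≃ₗ[F] L) ((g : L ≃ₗ[F] L) x)
    rw [← h1, mu_apply, mu_apply, ← hc, ← Algebra.smul_def, map_smul, Algebra.smul_def]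
  · obtain ⟨u, -, h1⟩ := mem_sg.1 ha
    obtain ⟨v, -, h2⟩ := mem_sg.1 hb
    refine Subtype.ext ?_
    rw [Subgroup.coe_mul, Subgroup.coe_mul, ← h1, ← h2, ← map_mul, ← map_mul, mul_comm]
  · rw [h.card_sg T0_le, h.card_sg Z0_le]
    rcases (num7 hn h7).d1 with h1 | h1 <;> rw [h1]
    · exact Nat.coprime_one_right _
    · exact (num7 hn h7).cn
  · rw [h.sg_sup7 hn h7] at hc ⊢
    obtain ⟨u, hu, h1⟩ := mem_sg.1 hc
    refine mem_C h (comm_mul hn (u := u) (g := ((g : L ≃ₗ[F] L) : L →ₗ[F] L))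
      (fun c hc => hz (mem_sg.2 ⟨u, ⟨hu, mem_S0.2 ⟨c, hc⟩⟩, h1⟩)) fun x => ?_)
    have h2 := LinearEquiv.congr_fun (congrArg Subtype.val hg) x
    rw [Subgroup.coe_mul, Subgroup.coe_mul, ← h1] at h2
    exact h2

theorem Ov.exists_min7 (h : Ov G) (hn : (finrank F L).Prime) (h7 : finrank F L = 7)
    (hnn : ¬ (sg G (T0 F L)).Normal) : ∃ G' ≤ G, MinOv G' := by
  have := finite_gl (F := F) (L := L)
  obtain ⟨H, ⟨h1, h2, h3⟩, hm⟩ := wellFounded_lt.has_min
    {H : Subgroup (L ≃ₗ[F] L) | H ≤ G ∧ Ov H ∧ ¬ (sg H (T0 F L)).Normal} ⟨G, le_rfl, h, hnn⟩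
  refine ⟨H, h1, h2, h3, fun N hN hT hZ => ?_⟩
  by_contra hne
  have hC : sg H (C0 F L) ≤ N := h2.sg_sup7 hn h7 ▸ sup_le hT hZ
  have hle : N.map H.subtype ≤ H := Subgroup.map_subtype_le N
  have hO : Ov (N.map H.subtype) := ⟨fun g hg => h2.det g (hle hg), fun u hu =>
    ⟨⟨_, h2.mem u hu⟩, hC (mem_sg.2 ⟨u, hu, rfl⟩), rfl⟩⟩
  have hlt : N.map H.subtype < H := lt_of_le_of_ne hle fun e => hne (eq_top_iff.2 fun g _ => by
    obtain ⟨g', hg', h4⟩ := (e.symm ▸ g.2 : (g : L ≃ₗ[F] L) ∈ N.map H.subtype)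
    exact (Subtype.ext h4 : g' = g) ▸ hg')
  have hnor : (sg (N.map H.subtype) (T0 F L)).Normal := by
    by_contra h4
    exact hm _ ⟨hle.trans h1, hO, h4⟩ hlt
  have hNN : N ≤ Subgroup.normalizer (sg H (T0 F L) : Set H) := by
    refine Subgroup.le_normalizer_iff.2 fun g hg t ht => ?_
    obtain ⟨u, hu, h4⟩ := mem_sg.1 ht
    obtain ⟨v, hv, h5⟩ := mem_sg.1 (hnor.conj_mem ⟨t, t, hT ht, rfl⟩ (mem_sg.2 ⟨u, hu, h4⟩)
      ⟨g, g, hg, rfl⟩)
    exact mem_sg.2 ⟨v, hv, h5⟩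
  obtain ⟨e, he, hcc⟩ := h2.cc7 hn h7
  refine h3 ⟨fun t ht g => ?_⟩
  have h4 : (g * t * g⁻¹) ^ Nat.card (sg H (T0 F L)) = 1 := by
    rw [conj_pow, ← Subgroup.coe_mk (sg H (T0 F L)) t ht, ← Subgroup.coe_pow, pow_card_eq_one']
    simp
  refine hcc.mem_T (Subgroup.zpowers_le.2 (hcc.pow_mem (hNN (hN.conj_mem t (hT ht) g)))
    (mem_zpowers_pow_iff.2 ?_)) h4
  refine (Nat.Coprime.coprime_dvd_left he ?_).coprime_dvd_right (orderOf_dvd_of_pow_eq_one h4)
  rw [h2.card_sg T0_le]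
  exact (num7 hn h7).cn.symm

theorem norm_cop7 {e : ℕ} (hn : (finrank F L).Prime) (h7 : finrank F L = 7) (h : CC (sg G (T0 F L)) (sg G (Z0 F L)) e)
    {k : G} {x : L} (hx : x ≠ 0) {c : F} (hk : k.1 x = c • x) : (orderOf k).Coprime (Nat.card (sg G (T0 F L))) := by
  have := finite_gl (F := F) (L := L)
  refine Nat.coprime_of_dvd fun s hs h1 h2 => ?_
  have h3 := orderOf_pow_orderOf_div (orderOf_pos k).ne' h1
  have h4 : ∀ m : ℕ, (k ^ m).1 x = c ^ m • x := fun m => by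
    induction m with
    | zero => simp
    | succ m ih => rw [pow_succ, Subgroup.coe_mul, LinearEquiv.mul_apply, hk, map_smul, ih, smul_smul, pow_succ']
  obtain ⟨j, hj⟩ := h.conj_into hs h2 h3
  obtain ⟨u, hu, e⟩ := mem_sg.1 hj
  have h5 := LinearEquiv.congr_fun e (j.1 x)
  rw [mu_apply, Subgroup.coe_mul, Subgroup.coe_mul, LinearEquiv.mul_apply, LinearEquiv.mul_apply, Subgroup.coe_inv,
    LinearEquiv.coe_inv, LinearEquiv.symm_apply_apply, h4, map_smul, Algebra.smul_def,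
    mul_left_inj' (j.1.map_ne_zero_iff.2 hx)] at h5
  rw [Subgroup.mem_bot.1 ((T0_inf_S07 hn h7).le ⟨hu, mem_S0.2 ⟨_, h5.symm⟩⟩), map_one, eq_comm, OneMemClass.coe_eq_one,
    conj_eq_one_iff] at e
  exact hs.ne_one (by rw [← h3, e, orderOf_one])

theorem MinOv.not_cc_one7 (h : MinOv G) (hn : (finrank F L).Prime) (h7 : finrank F L = 7) :
    ¬ CC (sg G (T0 F L)) (sg G (Z0 F L)) 1 := fun hc => by
  have := finite_gl (F := F) (L := L)
  have N := num7 hn h7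
  obtain ⟨O, hO, h1, h2, h3, h4⟩ := hc.transfer
  have h5 := N.norm (small_orbits (O.map G.subtype) (d := Nat.card (Z0 F L)) ?_ fun x hx => ?_)
  · rw [Subgroup.card_map_of_injective G.subtype_injective, ← h.card_sg (U := T0 F L) inf_le_left] at h5
    refine h.nn (Subgroup.normalizer_eq_top_iff.1 (eq_top_iff.2 (h3.ge.trans (sup_le (fun g hg => ?_)
      Subgroup.le_normalizer))))
    refine Subgroup.center_le_normalizer _ (hc.zc (by_contra fun hZ => h5.not_ge ?_))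
    refine Nat.card_le_card_of_injective (fun t => ⟨_, hO.conj_mem g hg t.1⟩) fun t t' e => by_contra fun hne => hZ ?_
    have e1 : (t'⁻¹ * t).1 ≠ 1 := fun k => hne (inv_mul_eq_one.1 (Subtype.ext k)).symm
    obtain ⟨a, ha, z, hz, rfl⟩ := hc.dec (hc.cent _ (Subgroup.mem_sup_left (t'⁻¹ * t).2)
      (fun k => e1 (Subgroup.mem_bot.1 (hc.inf_eq.le ⟨(t'⁻¹ * t).2, k⟩))) g (by
        have e2 : t.1 * g * t.1⁻¹ = t'.1 * g * t'.1⁻¹ := congrArg Subtype.val e
        calc _ = t'.1⁻¹ * (t'.1 * g * t'.1⁻¹) * t.1 := by simp [mul_assoc]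
          _ = _ := by rw [← e2]; simp [mul_assoc]))
    rwa [Subgroup.mem_bot.1 (h2.le ⟨(O.mul_mem_cancel_left (h1 hz)).1 hg, ha⟩), mul_one]
  · refine le_trans (Set.ncard_le_ncard (t := mu F L '' Z0 F L) ?_ (Set.toFinite _))
      ((Set.ncard_image_le (Set.toFinite _)).trans (Nat.card_coe_set_eq _).ge)
    rintro _ ⟨⟨g, -, rfl⟩, c, hg⟩
    have c0 : algebraMap F L c ≠ 0 := fun e => one_ne_zero (g.1.map_eq_zero_iff.1 ((hg 1).trans (by
      rw [Algebra.smul_def, e, zero_mul])))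
    have e : mu F L (Units.mk0 _ c0) = g.1 := LinearEquiv.ext fun x => (Algebra.smul_def c x).symm.trans (hg x).symm
    exact ⟨_, ⟨mem_C0.2 (by rw [← det_mu, e]; exact h.det _ g.2), mem_S0.2 ⟨c, rfl⟩⟩, e⟩
  have v0 : 0 < Nat.card (T0 F L) := Nat.card_pos
  refine Nat.le_of_mul_le_mul_left (Nat.le_of_succ_le_succ ?_) v0
  rw [← mul_assoc, mul_comm (Nat.card (T0 F L)) (Nat.card (Z0 F L)), Nat.succ_eq_add_one, Nat.succ_eq_add_one, N.eq,
    ← card_top_eq_pow, ← Nat.card_coe_set_eq, ← Nat.card_prod, ← Finite.card_option]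
  refine Nat.card_le_card_of_injective (fun o => o.elim 0 fun a => a.1.1 * a.2.1) ?_
  have h6 : ∀ a : T0 F L × {y : L | ∃ g ∈ O.map G.subtype, ∃ c : F, c ≠ 0 ∧ y = c • g x}, (a.1.1 : L) * a.2.1 ≠ 0 := by
    rintro ⟨t, _, g, -, c, hc, rfl⟩
    exact mul_ne_zero t.1.ne_zero (smul_ne_zero hc (g.map_ne_zero_iff.2 hx))
  rintro (_ | a) (_ | b) e
  · rfl
  · exact (h6 b e.symm).elim
  · exact (h6 a e).elim
  · revert e
    obtain ⟨t, _, _, ⟨g, hg, rfl⟩, c, c0, rfl⟩ := a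
    obtain ⟨t', _, _, ⟨g', hg', rfl⟩, c', c1, rfl⟩ := b
    intro e
    change (t.1 : L) * c • g.1 x = t'.1 * c' • g'.1 x at e
    let w : G := ⟨mu F L (t'⁻¹ * t).1, h.mem _ (t'⁻¹ * t).2.1⟩
    have h7 := h4 _ (norm_cop7 hn h7 hc (k := g'⁻¹ * w * g) hx (c := c⁻¹ * c') (by
      change g'.1.symm ((t'.1⁻¹ * t.1 : Lˣ) * g.1 x) = _
      rw [LinearEquiv.symm_apply_eq, map_smul, mul_smul, eq_inv_smul_iff₀ c0, Units.val_mul, mul_assoc, ← mul_smul_comm,
        ← mul_smul_comm, e, Units.inv_mul_cancel_left]))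
    have h8 := Subgroup.mem_bot.1 (h2.le ⟨(O.mul_mem_cancel_left (inv_mem hg')).1 ((O.mul_mem_cancel_right hg).1 h7),
      mem_sg.2 ⟨_, (t'⁻¹ * t).2, rfl⟩⟩)
    obtain rfl : t' = t := inv_mul_eq_one.1 (Subtype.ext (mu_inj ((congrArg Subtype.val h8).trans (map_one _).symm)))
    exact congrArg (fun y => some (t', y)) (Subtype.ext (mul_left_cancel₀ t'.1.ne_zero e))

theorem MinOv.cc7 (h : MinOv G) (hn : (finrank F L).Prime) (h7 : finrank F L = 7) :
    CC (sg G (T0 F L)) (sg G (Z0 F L)) (finrank F L) := by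
  obtain ⟨e, he, hc⟩ := h.toOv.cc7 hn h7
  obtain rfl | rfl := (Nat.dvd_prime hn).1 he
  exacts [(h.not_cc_one7 hn h7 hc).elim, hc]

theorem MinOv.exists_good7 (h : MinOv G) (hn : (finrank F L).Prime) (h7 : finrank F L = 7) :
    ∃ a, Good G a := by
  by_cases hc : Nat.card (Z0 F L) = 1
  · exact ⟨1, one_ne_zero, fun z hz => ⟨1, one_mem _, by
      rw [show z = 1 from (Subgroup.card_eq_one.1 hc).le hz]; simp⟩⟩
  have := finite_gl (F := F) (L := L)
  have cc := h.cc7 hn h7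
  have hZ : (sg G (Z0 F L)).Normal := ⟨fun z hz g => by
    rw [Subgroup.mem_center_iff.1 (cc.zc hz) g, mul_inv_cancel_right]; exact hz⟩
  obtain ⟨g, hg, hg'⟩ := SetLike.not_le_iff_exists.1 fun k =>
    hn.ne_one (cc.idx.symm.trans (Subgroup.relIndex_eq_one.2 k))
  obtain ⟨g0, h0, z, hz, rfl⟩ := Subgroup.mem_sup_of_normal_right.1
    ((h.gen (Subgroup.normalClosure (sg G (T0 F L) : Set G) ⊔ sg G (Z0 F L)) inferInstance
      (Subgroup.le_normalClosure.trans le_sup_left) le_sup_right).ge (Subgroup.mem_top g))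
  rw [mul_mem_cancel_right (Subgroup.center_le_normalizer _ (cc.zc hz))] at hg
  rw [mul_mem_cancel_right (Subgroup.mem_sup_right hz)] at hg'
  obtain ⟨u, hu, e⟩ := mem_sg.1 (by_contra fun k =>
    hg' (cc.cent _ (cc.pow_mem hg) k g0 (Commute.self_pow g0 _)))
  by_cases u1 : u = 1
  · obtain ⟨y, hy, y1⟩ := (Subgroup.bot_or_exists_ne_one (Z0 F L)).resolve_left fun k =>
      hc (Subgroup.card_eq_one.2 k)
    obtain ⟨c, c1, c2⟩ := mem_Z0.1 hy
    have : Fact (finrank F L).Prime := ⟨hn⟩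
    obtain ⟨ω, w1, w2, a, a0, ha⟩ := good_eigen (f := ((g0 : L ≃ₗ[F] L) : L →ₗ[F] L)) hn.pos
      (orderOf_eq_prime c2 (fun k => y1 (Units.ext (by rw [← c1, k, map_one, Units.val_one]))) ▸
        IsPrimitiveRoot.orderOf c)
      ((map_pow LinearEquiv.automorphismGroup.toLinearMapMonoidHom _ _).symm.trans (by
        rw [← Subgroup.coe_pow, ← e, u1, map_one, map_one]))
      fun k => hg' (by
        rw [show g0 = 1 from Subtype.ext (LinearEquiv.toLinearMap_injective k)]; exact one_mem _)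
    have w0 : algebraMap F L ω ≠ 0 := (map_ne_zero _).2 fun k => by
      rw [k, zero_pow hn.ne_zero] at w1; exact zero_ne_one w1
    exact ⟨a, good_of_one hn a0 (z := Units.mk0 _ w0) (mem_Z0.2 ⟨ω, rfl, w1⟩) (fun k => w2
      ((algebraMap F L).injective ((congrArg Units.val k).trans (map_one _).symm))) h0
      (ha.trans (Algebra.smul_def _ _))⟩
  · exact ⟨1, good_of_one hn one_ne_zero hu u1 (pow_mem h0 (finrank F L))
      (LinearEquiv.congr_fun e 1).symm⟩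

open TTsAux Submodule in
theorem pigeon7 (hn : (finrank F L).Prime) (h7 : finrank F L = 7) {x y : L} (x0 : x ≠ 0)
    (hy : y ∉ span F {x}) : ∃ (a : L) (c : Lˣ), a ≠ 0 ∧ c ∈ C0 F L ∧ c ∉ S0 F L ∧
      span F {a, c * a} = span F {x, y} := by
  have nx := notMem_l1_symm x0 hy
  have ne : ∀ β : F, x + β • y ≠ 0 := fun β e =>
    nx (mem_span_singleton.2 ⟨-β, by rw [neg_smul, eq_neg_of_add_eq_zero_left e]⟩)
  let f : F → Lˣ ⧸ (C0 F L ⊔ S0 F L) := fun β => (Units.mk0 _ (ne β) : Lˣ)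
  obtain ⟨β, β', hne, e⟩ : ∃ β β', β ≠ β' ∧ f β = f β' := by
    by_contra hc
    push Not at hc
    have := Nat.card_le_card_of_injective f fun β β' e => by_contra fun k => hc β β' k e
    rw [← Subgroup.index, index_CS, Nat.card_eq_fintype_card] at this
    exact absurd (num7 hn h7).dlt (by omega)
  obtain ⟨c, hc, s, hs, e2⟩ := Subgroup.mem_sup.1 (QuotientGroup.eq.1 e)
  obtain ⟨t, ht⟩ := mem_S0.1 hs
  have e3 : t • ((c : L) * (x + β • y)) = x + β' • y := by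
    have := congrArg Units.val (eq_inv_mul_iff_mul_eq.1 e2)
    simp only [Units.val_mul, Units.val_mk0] at this
    rw [← this, Algebra.smul_def, ht]; ring
  have t0 : t ≠ 0 := by
    rintro rfl
    exact ne β' (by rw [← e3, zero_smul])
  have m : ∀ β : F, x + β • y ∈ span F {x, y} := fun β =>
    add_mem (left_l2 x y) (smul_mem _ _ (right_l2 x y))
  have hc' : c ∉ S0 F L := fun k => by
    obtain ⟨r, hr⟩ := mem_S0.1 k
    rw [← hr, ← Algebra.smul_def, smul_smul] at e3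
    obtain ⟨φ, h1, h2⟩ := sep2 x0 hy (1 : F) 0
    obtain ⟨ψ, h3, h4⟩ := sep2 x0 hy (0 : F) 1
    have k1 := congrArg φ e3
    have k2 := congrArg ψ e3
    simp only [map_smul, map_add, h1, h2, h3, h4, smul_eq_mul, mul_zero, add_zero, mul_one,
      zero_add] at k1 k2
    exact hne (by rw [← k2, k1, one_mul])
  refine ⟨x + β • y, c, ne β, hc, hc', eq_of_le_of_finrank_eq (l2_le (m β) ?_) ?_⟩
  · rw [← (span F {x, y}).smul_mem_iff t0, e3]; exact m β'
  · rw [rk_l2 (ne β) (nm (ne β) hc'), rk_l2 x0 hy]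

end Cfsg.Agent.SNG
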